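import Mathlib

set_option autoImplicit false

/-!
# Pairs of norm-one elements with sum `2` in a finite field: character sums

For the field `F = GaloisField p q` and the norm `N : F → ZMod p`, the number `n` of `a ∈ F` with
`N a = 1 = N (2 - a)` satisfies `|(p-1)² n - (p^q - 2)| ≤ ((p-1)² - 1) √(p^q)` (Jacobi sums).
-/

namespace Cfsg.Agent.Lib.helper5.NormPair

open Finset

section charsum

variable (p q : ℕ) [Fact p.Prime]

/-- the multiplicative character `ω ∘ N` of `GaloisField p q` -/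
noncomputable def normChar (ω : MulChar (ZMod p) ℂ) : MulChar (GaloisField p q) ℂ where
  toFun x := ω (Algebra.norm (ZMod p) x)
  map_one' := by simp
  map_mul' x y := by simp
  map_nonunit' x hx := by
    have hx0 : x = 0 := by
      by_contra h
      exact hx (isUnit_iff_ne_zero.mpr h)
    subst hx0
    rw [Algebra.norm_zero]
    exact MulChar.map_nonunit ω not_isUnit_zero

theorem normChar_apply (ω : MulChar (ZMod p) ℂ) (x : GaloisField p q) :
    normChar p q ω x = ω (Algebra.norm (ZMod p) x) := rfl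

theorem norm_ne_zero_of_ne_zero {x : GaloisField p q} (hx : x ≠ 0) :
    Algebra.norm (ZMod p) x ≠ 0 := by
  intro h
  exact hx (Algebra.norm_eq_zero_iff.mp h)

theorem normChar_one : normChar p q 1 = 1 := by
  ext a
  rw [normChar_apply, MulChar.one_apply_coe]
  exact MulChar.one_apply (isUnit_iff_ne_zero.mpr (norm_ne_zero_of_ne_zero p q a.ne_zero))

theorem normChar_mul (ω₁ ω₂ : MulChar (ZMod p) ℂ) :
    normChar p q (ω₁ * ω₂) = normChar p q ω₁ * normChar p q ω₂ := by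
  ext a
  rw [MulChar.mul_apply, normChar_apply, normChar_apply, normChar_apply, MulChar.mul_apply]

theorem normChar_ne_one {ω : MulChar (ZMod p) ℂ} (hω : ω ≠ 1) : normChar p q ω ≠ 1 := by
  intro h
  apply hω
  ext c
  obtain ⟨x, hx⟩ := FiniteField.norm_surjective (ZMod p) (GaloisField p q) (c : ZMod p)
  have hx0 : x ≠ 0 := by
    rintro rfl
    rw [Algebra.norm_zero] at hx
    exact c.ne_zero hx.symm
  have h1 : normChar p q ω x = (1 : MulChar (GaloisField p q) ℂ) x := by rw [h]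
  rw [normChar_apply, hx, MulChar.one_apply (isUnit_iff_ne_zero.mpr hx0)] at h1
  rw [h1, MulChar.one_apply_coe]

variable [Fintype (GaloisField p q)]

theorem sum_mulChar_apply (a : ZMod p) :
    ∑ ω : MulChar (ZMod p) ℂ, ω a = if a = 1 then ((p - 1 : ℕ) : ℂ) else 0 := by
  haveI : NeZero p := ⟨(Fact.out : p.Prime).ne_zero⟩
  have h := DirichletCharacter.sum_characters_eq ℂ (n := p) a
  rw [Nat.totient_prime (Fact.out : p.Prime)] at h
  exact h

theorem card_mulChar : Fintype.card (MulChar (ZMod p) ℂ) = p - 1 := by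
  haveI : NeZero p := ⟨(Fact.out : p.Prime).ne_zero⟩
  have h := DirichletCharacter.card_eq_totient_of_hasEnoughRootsOfUnity ℂ p
  rw [Nat.totient_prime (Fact.out : p.Prime), Nat.card_eq_fintype_card] at h
  exact h

/-- the counting identity -/
theorem count_eq :
    (((p - 1 : ℕ) : ℂ)) ^ 2 *
      (Set.ncard {a : GaloisField p q | Algebra.norm (ZMod p) a = 1 ∧
        Algebra.norm (ZMod p) (2 - a) = 1} : ℂ) =
      ∑ ω₁ : MulChar (ZMod p) ℂ, ∑ ω₂ : MulChar (ZMod p) ℂ, ∑ x : GaloisField p q,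
        normChar p q ω₁ x * normChar p q ω₂ (2 - x) := by
  classical
  have h1 : ∑ ω₁ : MulChar (ZMod p) ℂ, ∑ ω₂ : MulChar (ZMod p) ℂ, ∑ x : GaloisField p q,
        normChar p q ω₁ x * normChar p q ω₂ (2 - x) =
      ∑ x : GaloisField p q, (∑ ω₁ : MulChar (ZMod p) ℂ, ω₁ (Algebra.norm (ZMod p) x)) *
        (∑ ω₂ : MulChar (ZMod p) ℂ, ω₂ (Algebra.norm (ZMod p) (2 - x))) := by
    have h2 : ∀ ω₁ : MulChar (ZMod p) ℂ, ∑ ω₂ : MulChar (ZMod p) ℂ, ∑ x : GaloisField p q,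
        normChar p q ω₁ x * normChar p q ω₂ (2 - x) =
        ∑ x : GaloisField p q, ∑ ω₂ : MulChar (ZMod p) ℂ,
          normChar p q ω₁ x * normChar p q ω₂ (2 - x) := fun ω₁ => Finset.sum_comm
    rw [Finset.sum_congr rfl fun ω₁ _ => h2 ω₁, Finset.sum_comm]
    refine Finset.sum_congr rfl fun x _ => ?_
    rw [Finset.sum_mul_sum]
    rfl
  rw [h1]
  have h3 : ∀ x : GaloisField p q, (∑ ω₁ : MulChar (ZMod p) ℂ, ω₁ (Algebra.norm (ZMod p) x)) *
        (∑ ω₂ : MulChar (ZMod p) ℂ, ω₂ (Algebra.norm (ZMod p) (2 - x))) =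
      if (Algebra.norm (ZMod p) x = 1 ∧ Algebra.norm (ZMod p) (2 - x) = 1) then
        (((p - 1 : ℕ) : ℂ)) ^ 2 else 0 := by
    intro x
    rw [sum_mulChar_apply, sum_mulChar_apply]
    by_cases ha : Algebra.norm (ZMod p) x = 1
    · by_cases hb : Algebra.norm (ZMod p) (2 - x) = 1
      · simp only [ha, hb, and_self, if_true, pow_two]
      · simp only [ha, hb, and_false, if_false, if_true, mul_zero]
    · simp only [ha, false_and, if_false, zero_mul]
  rw [Finset.sum_congr rfl fun x _ => h3 x, ← Finset.sum_filter, Finset.sum_const, nsmul_eq_mul,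
    mul_comm]
  congr 2
  rw [Set.ncard_eq_toFinset_card']
  congr 1
  ext x
  simp

theorem two_ne_zero' (hp : p ≠ 2) : (2 : GaloisField p q) ≠ 0 := by
  intro h
  have h2 : ((2 : ℕ) : GaloisField p q) = 0 := by exact_mod_cast h
  rw [CharP.cast_eq_zero_iff (GaloisField p q) p] at h2
  have := (Nat.prime_dvd_prime_iff_eq (Fact.out : p.Prime) Nat.prime_two).mp h2
  exact hp this

theorem sum_shift (hp : p ≠ 2) (χ₁ χ₂ : MulChar (GaloisField p q) ℂ) :
    ∑ x : GaloisField p q, χ₁ x * χ₂ (2 - x) = χ₁ 2 * χ₂ 2 * jacobiSum χ₁ χ₂ := by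
  have h2 := two_ne_zero' p q hp
  rw [jacobiSum, Finset.mul_sum]
  rw [← Fintype.sum_equiv (Equiv.mulLeft₀ (2 : GaloisField p q) h2)
    (fun y => χ₁ 2 * χ₂ 2 * (χ₁ y * χ₂ (1 - y))) (fun x => χ₁ x * χ₂ (2 - x))]
  intro y
  have e1 : (Equiv.mulLeft₀ (2 : GaloisField p q) h2) y = 2 * y := rfl
  rw [e1, map_mul, show (2 : GaloisField p q) - 2 * y = 2 * (1 - y) by ring, map_mul]
  ring

theorem norm_mulChar_le_one (χ : MulChar (GaloisField p q) ℂ) (x : GaloisField p q) :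
    ‖χ x‖ ≤ 1 := by
  by_cases hx : x = 0
  · subst hx
    rw [MulChar.map_nonunit χ not_isUnit_zero, norm_zero]
    exact zero_le_one
  · have h1 : x ^ (Fintype.card (GaloisField p q) - 1) = 1 :=
      FiniteField.pow_card_sub_one_eq_one x hx
    have h2 : (χ x) ^ (Fintype.card (GaloisField p q) - 1) = 1 := by
      rw [← map_pow, h1, map_one]
    have h3 : ‖χ x‖ ^ (Fintype.card (GaloisField p q) - 1) = 1 := by
      rw [← norm_pow, h2, norm_one]
    have hne : Fintype.card (GaloisField p q) - 1 ≠ 0 := by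
      have := Fintype.one_lt_card (α := GaloisField p q)
      omega
    exact le_of_eq ((pow_eq_one_iff_of_nonneg (norm_nonneg _) hne).mp h3)

theorem one_le_sqrt_card (hq : q ≠ 0) : (1 : ℝ) ≤ Real.sqrt ((p : ℝ) ^ q) := by
  rw [Real.one_le_sqrt]
  exact one_le_pow₀ (by exact_mod_cast (Fact.out : p.Prime).one_le)

theorem card_galois (hq : q ≠ 0) : Fintype.card (GaloisField p q) = p ^ q := by
  rw [← Nat.card_eq_fintype_card]
  exact GaloisField.card p q hq

theorem jacobi_star (χ φ : MulChar (GaloisField p q) ℂ) :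
    jacobiSum χ⁻¹ φ⁻¹ = star (jacobiSum χ φ) := by
  rw [jacobiSum, jacobiSum, star_sum]
  refine Finset.sum_congr rfl fun x _ => ?_
  rw [star_mul', MulChar.star_apply', MulChar.star_apply']

theorem norm_jacobi_le (hq : q ≠ 0) (ω₁ ω₂ : MulChar (ZMod p) ℂ) (h : ¬ (ω₁ = 1 ∧ ω₂ = 1)) :
    ‖jacobiSum (normChar p q ω₁) (normChar p q ω₂)‖ ≤ Real.sqrt ((p : ℝ) ^ q) := by
  have hs := one_le_sqrt_card p q hq
  by_cases h1 : ω₁ = 1
  · have h2 : ω₂ ≠ 1 := fun h2 => h ⟨h1, h2⟩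
    rw [h1, normChar_one, jacobiSum_one_nontrivial (normChar_ne_one p q h2), norm_neg, norm_one]
    exact hs
  by_cases h2 : ω₂ = 1
  · rw [h2, normChar_one, jacobiSum_comm, jacobiSum_one_nontrivial (normChar_ne_one p q h1),
      norm_neg, norm_one]
    exact hs
  by_cases h12 : ω₁ * ω₂ = 1
  · have h3 : normChar p q ω₂ = (normChar p q ω₁)⁻¹ := by
      apply eq_inv_of_mul_eq_one_right
      rw [← normChar_mul, h12, normChar_one]
    rw [h3, jacobiSum_nontrivial_inv (normChar_ne_one p q h1), norm_neg]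
    exact (norm_mulChar_le_one p q _ _).trans hs
  · have hχ := normChar_ne_one p q h1
    have hφ := normChar_ne_one p q h2
    have hχφ : normChar p q ω₁ * normChar p q ω₂ ≠ 1 := by
      rw [← normChar_mul]
      exact normChar_ne_one p q h12
    have hchar : ringChar ℂ ≠ ringChar (GaloisField p q) := by
      rw [ringChar.eq_zero, ringChar.eq (GaloisField p q) p]
      exact (Fact.out : p.Prime).ne_zero.symm
    have hJ := jacobiSum_mul_jacobiSum_inv hchar hχ hφ hχφ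
    rw [jacobi_star, card_galois p q hq] at hJ
    have h4 : ‖jacobiSum (normChar p q ω₁) (normChar p q ω₂)‖ ^ 2 = (p : ℝ) ^ q := by
      have h5 := congrArg norm hJ
      rw [norm_mul, norm_star, ← pow_two] at h5
      rw [h5]
      push_cast
      rw [norm_pow, Complex.norm_natCast]
    rw [← h4, Real.sqrt_sq (norm_nonneg _)]

/-- the Jacobi sum estimate for the number of `a` with `N a = 1 = N (2 - a)` -/
theorem count_bound (hp : p ≠ 2) (hq : q ≠ 0) :
    ((p : ℝ) ^ q - 2) - ((p - 1 : ℕ) : ℝ) ^ 2 *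
        (Set.ncard {a : GaloisField p q | Algebra.norm (ZMod p) a = 1 ∧
          Algebra.norm (ZMod p) (2 - a) = 1} : ℝ)
      ≤ (((p - 1 : ℕ) : ℝ) ^ 2 - 1) * Real.sqrt ((p : ℝ) ^ q) := by
  classical
  obtain ⟨n, hn⟩ : ∃ n : ℕ, n = Set.ncard {a : GaloisField p q | Algebra.norm (ZMod p) a = 1 ∧
          Algebra.norm (ZMod p) (2 - a) = 1} := ⟨_, rfl⟩
  rw [← hn]
  have hcount := count_eq p q
  rw [← hn] at hcount
  obtain ⟨g, hg⟩ : ∃ g : MulChar (ZMod p) ℂ × MulChar (ZMod p) ℂ → ℂ, g = fun z =>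
      normChar p q z.1 2 * normChar p q z.2 2 * jacobiSum (normChar p q z.1) (normChar p q z.2) :=
    ⟨_, rfl⟩
  have h1 : ∑ ω₁ : MulChar (ZMod p) ℂ, ∑ ω₂ : MulChar (ZMod p) ℂ, ∑ x : GaloisField p q,
        normChar p q ω₁ x * normChar p q ω₂ (2 - x) =
      ∑ z ∈ (Finset.univ : Finset (MulChar (ZMod p) ℂ)) ×ˢ
        (Finset.univ : Finset (MulChar (ZMod p) ℂ)), g z := by
    rw [Finset.sum_product]
    refine Finset.sum_congr rfl fun ω₁ _ => Finset.sum_congr rfl fun ω₂ _ => ?_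
    rw [sum_shift p q hp, hg]
  have hmem : ((1 : MulChar (ZMod p) ℂ), (1 : MulChar (ZMod p) ℂ)) ∈
      (Finset.univ : Finset (MulChar (ZMod p) ℂ)) ×ˢ
        (Finset.univ : Finset (MulChar (ZMod p) ℂ)) := by simp
  have h2u : IsUnit (2 : GaloisField p q) := isUnit_iff_ne_zero.mpr (two_ne_zero' p q hp)
  have hg11 : g (1, 1) = ((p : ℂ) ^ q - 2) := by
    rw [hg]
    simp only
    rw [normChar_one, MulChar.one_apply h2u, jacobiSum_one_one, card_galois p q hq]
    push_cast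
    ring
  rw [h1, ← Finset.add_sum_erase _ _ hmem, hg11] at hcount
  have hbound : ∀ z ∈ ((Finset.univ : Finset (MulChar (ZMod p) ℂ)) ×ˢ
        (Finset.univ : Finset (MulChar (ZMod p) ℂ))).erase (1, 1),
      ‖g z‖ ≤ Real.sqrt ((p : ℝ) ^ q) := by
    intro z hz
    have hz1 : z ≠ (1, 1) := (Finset.mem_erase.mp hz).1
    have hz2 : ¬ (z.1 = 1 ∧ z.2 = 1) := by
      rintro ⟨ha, hb⟩
      exact hz1 (Prod.ext ha hb)
    rw [hg]
    simp only
    rw [norm_mul, norm_mul]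
    have ha := norm_mulChar_le_one p q (normChar p q z.1) 2
    have hb := norm_mulChar_le_one p q (normChar p q z.2) 2
    have hc := norm_jacobi_le p q hq z.1 z.2 hz2
    have hab : ‖normChar p q z.1 2‖ * ‖normChar p q z.2 2‖ ≤ 1 := by
      calc ‖normChar p q z.1 2‖ * ‖normChar p q z.2 2‖ ≤ 1 * 1 :=
            mul_le_mul ha hb (norm_nonneg _) zero_le_one
        _ = 1 := one_mul 1
    calc ‖normChar p q z.1 2‖ * ‖normChar p q z.2 2‖ *
          ‖jacobiSum (normChar p q z.1) (normChar p q z.2)‖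
        ≤ 1 * Real.sqrt ((p : ℝ) ^ q) :=
          mul_le_mul hab hc (norm_nonneg _) zero_le_one
      _ = Real.sqrt ((p : ℝ) ^ q) := one_mul _
  have hcard : (((Finset.univ : Finset (MulChar (ZMod p) ℂ)) ×ˢ
        (Finset.univ : Finset (MulChar (ZMod p) ℂ))).erase (1, 1)).card = (p - 1) ^ 2 - 1 := by
    rw [Finset.card_erase_of_mem hmem, Finset.card_product, Finset.card_univ, card_mulChar, pow_two]
  have hsum : ‖∑ z ∈ ((Finset.univ : Finset (MulChar (ZMod p) ℂ)) ×ˢ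
        (Finset.univ : Finset (MulChar (ZMod p) ℂ))).erase (1, 1), g z‖ ≤
      (((p - 1 : ℕ) : ℝ) ^ 2 - 1) * Real.sqrt ((p : ℝ) ^ q) := by
    refine (norm_sum_le _ _).trans ?_
    refine (Finset.sum_le_sum hbound).trans ?_
    rw [Finset.sum_const, hcard, nsmul_eq_mul]
    have h1le : 1 ≤ (p - 1) ^ 2 := Nat.one_le_pow _ _ (by
      have := (Fact.out : p.Prime).two_le
      omega)
    rw [Nat.cast_sub h1le]
    push_cast
    exact le_refl _
  have hreal : ∑ z ∈ ((Finset.univ : Finset (MulChar (ZMod p) ℂ)) ×ˢ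
        (Finset.univ : Finset (MulChar (ZMod p) ℂ))).erase (1, 1), g z =
      ((((p - 1 : ℕ) : ℝ) ^ 2 * (n : ℝ) - ((p : ℝ) ^ q - 2) : ℝ) : ℂ) := by
    push_cast
    rw [hcount]
    ring
  rw [hreal, Complex.norm_real, Real.norm_eq_abs] at hsum
  have := neg_abs_le (((p - 1 : ℕ) : ℝ) ^ 2 * (n : ℝ) - ((p : ℝ) ^ q - 2))
  linarith

/-- for `q ≥ 5` there are at least two `a` with `N a = 1 = N (2 - a)` -/
theorem two_le_ncard_of_five_le (hp : p ≠ 2) (hq : 5 ≤ q) :
    2 ≤ Set.ncard {a : GaloisField p q | Algebra.norm (ZMod p) a = 1 ∧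
          Algebra.norm (ZMod p) (2 - a) = 1} := by
  have hb := count_bound p q hp (by omega)
  by_contra hlt
  have hn1 : (Set.ncard {a : GaloisField p q | Algebra.norm (ZMod p) a = 1 ∧
          Algebra.norm (ZMod p) (2 - a) = 1} : ℝ) ≤ 1 := by
    have : Set.ncard {a : GaloisField p q | Algebra.norm (ZMod p) a = 1 ∧
          Algebra.norm (ZMod p) (2 - a) = 1} ≤ 1 := by omega
    exact_mod_cast this
  have hp3 : (3 : ℝ) ≤ (p : ℝ) := by
    have h2 := (Fact.out : p.Prime).two_le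
    have : 3 ≤ p := by omega
    exact_mod_cast this
  have hcast : ((p - 1 : ℕ) : ℝ) = (p : ℝ) - 1 := by
    rw [Nat.cast_sub (Fact.out : p.Prime).one_le]
    simp
  rw [hcast] at hb
  obtain ⟨s, hs⟩ : ∃ s : ℝ, s = Real.sqrt ((p : ℝ) ^ q) := ⟨_, rfl⟩
  rw [← hs] at hb
  have hs0 : 0 ≤ s := by rw [hs]; exact Real.sqrt_nonneg _
  have hss : s ^ 2 = (p : ℝ) ^ q := by
    rw [hs, Real.sq_sqrt (by positivity)]
  have hpow : (p : ℝ) ^ 5 ≤ (p : ℝ) ^ q :=
    pow_le_pow_right₀ (by linarith) hq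
  obtain ⟨P, hP⟩ : ∃ P : ℝ, P = (p : ℝ) := ⟨_, rfl⟩
  rw [← hP] at hb hpow hp3 hss
  obtain ⟨Q, hQ⟩ : ∃ Q : ℝ, Q = P ^ q := ⟨_, rfl⟩
  rw [← hQ] at hb hpow hss
  obtain ⟨n, hn⟩ : ∃ n : ℝ, n = (Set.ncard {a : GaloisField p q | Algebra.norm (ZMod p) a = 1 ∧
          Algebra.norm (ZMod p) (2 - a) = 1} : ℝ) := ⟨_, rfl⟩
  rw [← hn] at hb hn1
  have hP2 : 0 ≤ (P - 1) ^ 2 := sq_nonneg _
  have h1 : Q - 2 - (P - 1) ^ 2 ≤ ((P - 1) ^ 2 - 1) * s := by nlinarith
  have hs15 : 3 / 2 * P ^ 2 ≤ s := by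
    by_contra hlt2
    push Not at hlt2
    have : s ^ 2 < (3 / 2 * P ^ 2) ^ 2 := by
      have hPP : 0 ≤ 3 / 2 * P ^ 2 := by positivity
      nlinarith
    have h5 : (3 / 2 * P ^ 2) ^ 2 ≤ P ^ 5 := by
      have : P ^ 5 - (3 / 2 * P ^ 2) ^ 2 = P ^ 4 * (P - 9 / 4) := by ring
      have h4 : 0 ≤ P ^ 4 := by positivity
      nlinarith
    linarith
  have hA : 0 ≤ s - 3 / 2 * P ^ 2 := by linarith
  have hB : 0 ≤ P - 3 := by linarith
  have hP0 : 0 ≤ P := by linarith
  have e1 : s * (s - (P ^ 2 - 2 * P)) ≥ 3 / 2 * P ^ 2 * (1 / 2 * P ^ 2 + 2 * P) := by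
    have hX : 0 ≤ (s - 3 / 2 * P ^ 2) * (s - (P ^ 2 - 2 * P)) := by
      apply mul_nonneg hA
      nlinarith
    have hY : 0 ≤ 3 / 2 * P ^ 2 * (s - 3 / 2 * P ^ 2) := by positivity
    nlinarith
  have e2 : 3 / 2 * P ^ 2 * (1 / 2 * P ^ 2 + 2 * P) > 2 + (P - 1) ^ 2 := by
    have h4 : P ^ 4 ≥ 81 := by
      have : (3 : ℝ) ^ 4 ≤ P ^ 4 := pow_le_pow_left₀ (by norm_num) hp3 4
      linarith
    have h3 : P ^ 3 ≥ 27 := by
      have : (3 : ℝ) ^ 3 ≤ P ^ 3 := pow_le_pow_left₀ (by norm_num) hp3 3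
      linarith
    nlinarith
  nlinarith

end charsum

end Cfsg.Agent.Lib.helper5.NormPair
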