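import Mathlib

set_option autoImplicit false

/-!
# Pairs of norm-one elements with sum `2` in the field with `p ^ 3` elements

The roots of an irreducible cubic `X (X - 2) (X - c) + (X - 1)` over `ZMod p` give elements `a ≠ 1`
of `GaloisField p 3` with `N a = 1 = N (2 - a)`.
-/

namespace Cfsg.Agent.Lib.helper5.NormPair

open Polynomial

section cubic

variable (p : ℕ) [Fact p.Prime]

/-- some cubic `X (X - 2) (X - c) + (X - 1)` has no root in `ZMod p` -/
theorem exists_no_root (hp : p ≠ 2) :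
    ∃ c : ZMod p, ∀ r : ZMod p, r * (r - 2) * (r - c) + (r - 1) ≠ 0 := by
  by_contra hcon
  push Not at hcon
  choose r hr using hcon
  have h2 : (2 : ZMod p) ≠ 0 := by
    intro h
    have h2 : ((2 : ℕ) : ZMod p) = 0 := by exact_mod_cast h
    rw [ZMod.natCast_eq_zero_iff] at h2
    exact hp ((Nat.prime_dvd_prime_iff_eq (Fact.out : p.Prime) Nat.prime_two).mp h2)
  have hr0 : ∀ c, r c ≠ 0 := by
    intro c h0
    have := hr c
    rw [h0] at this
    simp at this
  have hr2 : ∀ c, r c ≠ 2 := by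
    intro c h0
    have := hr c
    rw [h0] at this
    have h3 : (2 : ZMod p) - 1 = 1 := by ring
    simp [h3] at this
  have hinj : Function.Injective r := by
    intro c c' hcc
    have h1 := hr c
    have h1' := hr c'
    rw [← hcc] at h1'
    have h3 : r c * (r c - 2) * (c - c') = 0 := by linear_combination h1' - h1
    rcases mul_eq_zero.mp h3 with h4 | h4
    · rcases mul_eq_zero.mp h4 with h5 | h5
      · exact absurd h5 (hr0 c)
      · exact absurd (sub_eq_zero.mp h5) (hr2 c)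
    · exact sub_eq_zero.mp h4
  obtain ⟨c, hc⟩ := (Finite.injective_iff_surjective.mp hinj) 0
  exact hr0 c hc

/-- an element of `GaloisField p 3` fixed by Frobenius lies in the prime field -/
theorem exists_of_pow_eq (a : GaloisField p 3) (ha : a ^ p = a) :
    ∃ r : ZMod p, a = algebraMap (ZMod p) (GaloisField p 3) r := by
  have h1 := FiniteField.roots_X_pow_card_sub_X (ZMod p)
  rw [ZMod.card] at h1
  have hnat : (X ^ p - X : (ZMod p)[X]).natDegree = p :=
    FiniteField.X_pow_card_sub_X_natDegree_eq (ZMod p) (Fact.out : p.Prime).one_lt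
  have hne : (X ^ p - X : (ZMod p)[X]) ≠ 0 :=
    FiniteField.X_pow_card_sub_X_ne_zero (ZMod p) (Fact.out : p.Prime).one_lt
  have hcard : Multiset.card (X ^ p - X : (ZMod p)[X]).roots =
      (X ^ p - X : (ZMod p)[X]).natDegree := by
    rw [h1, hnat]
    simp [ZMod.card]
  have h := Polynomial.C_leadingCoeff_mul_prod_multiset_X_sub_C hcard
  rw [h1] at h
  have h' : C (X ^ p - X : (ZMod p)[X]).leadingCoeff * ∏ r : ZMod p, (X - C r) =
      (X ^ p - X : (ZMod p)[X]) := h
  have h2 := congrArg (Polynomial.aeval a) h'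
  rw [map_sub, map_pow, Polynomial.aeval_X, ha, sub_self, map_mul, map_prod,
    Polynomial.aeval_C] at h2
  have hlc : algebraMap (ZMod p) (GaloisField p 3) (X ^ p - X : (ZMod p)[X]).leadingCoeff ≠ 0 := by
    intro h0
    rw [map_eq_zero] at h0
    exact hne (Polynomial.leadingCoeff_eq_zero.mp h0)
  have h3 := (mul_eq_zero.mp h2).resolve_left hlc
  obtain ⟨r, -, hr⟩ := Finset.prod_eq_zero_iff.mp h3
  refine ⟨r, ?_⟩
  rw [map_sub, Polynomial.aeval_X, Polynomial.aeval_C] at hr
  exact sub_eq_zero.mp hr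

/-- Vieta for three distinct roots of `y (y - 2) (y - C) + (y - 1)` -/
theorem vieta {F : Type*} [Field F] (C r₁ r₂ r₃ : F) (h12 : r₁ ≠ r₂) (h13 : r₁ ≠ r₃)
    (h23 : r₂ ≠ r₃) (h1 : r₁ * (r₁ - 2) * (r₁ - C) + (r₁ - 1) = 0)
    (h2 : r₂ * (r₂ - 2) * (r₂ - C) + (r₂ - 1) = 0)
    (h3 : r₃ * (r₃ - 2) * (r₃ - C) + (r₃ - 1) = 0) :
    r₁ * r₂ * r₃ = 1 ∧ (2 - r₁) * (2 - r₂) * (2 - r₃) = 1 := by
  have hA0 : (r₁ + r₂ + r₃ - (C + 2)) * ((r₁ - r₂) * (r₁ - r₃) * (r₂ - r₃)) = 0 := by
    linear_combination (r₂ - r₃) * h1 - (r₁ - r₃) * h2 + (r₁ - r₂) * h3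
  have hV : (r₁ - r₂) * (r₁ - r₃) * (r₂ - r₃) ≠ 0 :=
    mul_ne_zero (mul_ne_zero (sub_ne_zero.mpr h12) (sub_ne_zero.mpr h13)) (sub_ne_zero.mpr h23)
  have hA : r₁ + r₂ + r₃ - (C + 2) = 0 := (mul_eq_zero.mp hA0).resolve_right hV
  have hB0 : ((2 * C + 1) - (r₁ * r₂ + r₁ * r₃ + r₂ * r₃)) * (r₁ - r₂) = 0 := by
    linear_combination h1 - h2 - (r₁ - r₂) * (r₁ + r₂) * hA
  have hB : (2 * C + 1) - (r₁ * r₂ + r₁ * r₃ + r₂ * r₃) = 0 :=
    (mul_eq_zero.mp hB0).resolve_right (sub_ne_zero.mpr h12)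
  have hE : r₁ * r₂ * r₃ - 1 = 0 := by
    linear_combination h1 - r₁ ^ 2 * hA - r₁ * hB
  refine ⟨sub_eq_zero.mp hE, ?_⟩
  linear_combination (-4) * hA - 2 * hB - hE

/-- a cubic `X (X - 2) (X - c) + (X - 1)` without roots in `ZMod p` has a root in
`GaloisField p 3` -/
theorem exists_root (c : ZMod p) (hc : ∀ r : ZMod p, r * (r - 2) * (r - c) + (r - 1) ≠ 0) :
    ∃ a : GaloisField p 3,
      a * (a - 2) * (a - algebraMap (ZMod p) (GaloisField p 3) c) + (a - 1) = 0 := by
  obtain ⟨f, hf⟩ : ∃ f : (ZMod p)[X], f = X * (X - C 2) * (X - C c) + (X - C 1) := ⟨_, rfl⟩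
  have hm1 : (X * (X - C 2) * (X - C c) : (ZMod p)[X]).Monic :=
    (monic_X.mul (monic_X_sub_C 2)).mul (monic_X_sub_C c)
  have hd1 : (X * (X - C 2) * (X - C c) : (ZMod p)[X]).natDegree = 3 := by
    rw [Monic.natDegree_mul (monic_X.mul (monic_X_sub_C 2)) (monic_X_sub_C c),
      Monic.natDegree_mul monic_X (monic_X_sub_C 2), natDegree_X, natDegree_X_sub_C,
      natDegree_X_sub_C]
  have hd2 : (X - C 1 : (ZMod p)[X]).degree < (X * (X - C 2) * (X - C c) : (ZMod p)[X]).degree := by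
    rw [degree_X_sub_C, degree_eq_natDegree hm1.ne_zero, hd1]
    norm_num
  have hm : f.Monic := by
    rw [hf]
    exact hm1.add_of_left hd2
  have hd : f.natDegree = 3 := by
    rw [hf, natDegree_add_eq_left_of_degree_lt hd2, hd1]
  have hirr : Irreducible f := by
    rw [Monic.irreducible_iff_roots_eq_zero_of_degree_le_three hm (by omega) (by omega)]
    apply Multiset.eq_zero_of_forall_notMem
    intro r hr
    have h1 : f.eval r = 0 := (mem_roots hm.ne_zero).mp hr
    apply hc r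
    have h2 : f.eval r = r * (r - 2) * (r - c) + (r - 1) := by
      rw [hf]
      simp
    rw [← h2]
    exact h1
  haveI : Fact (Irreducible f) := ⟨hirr⟩
  have hfin : Module.finrank (ZMod p) (AdjoinRoot f) = 3 := by
    rw [(AdjoinRoot.powerBasis hm.ne_zero).finrank, AdjoinRoot.powerBasis_dim, hd]
  have hfin' : Module.finrank (ZMod p) (GaloisField p 3) = 3 :=
    GaloisField.finrank p (by norm_num)
  obtain ⟨φ⟩ := FiniteField.nonempty_algHom_of_finrank_dvd (F := ZMod p) (K := AdjoinRoot f)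
    (L := GaloisField p 3) (by rw [hfin, hfin'])
  have h0 : Polynomial.aeval (AdjoinRoot.root f) f = 0 := by
    rw [AdjoinRoot.aeval_eq, AdjoinRoot.mk_self]
  have h1 : Polynomial.aeval (φ (AdjoinRoot.root f)) f = 0 := by
    rw [Polynomial.aeval_algHom_apply, h0, map_zero]
  obtain ⟨a, ha⟩ : ∃ a : GaloisField p 3, a = φ (AdjoinRoot.root f) := ⟨_, rfl⟩
  rw [← ha] at h1
  refine ⟨a, ?_⟩
  rw [hf] at h1
  have h2 : algebraMap (ZMod p) (GaloisField p 3) 2 = 2 := map_ofNat _ 2
  simpa [h2] using h1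

/-- in the field with `p ^ 3` elements, `p` odd, there are at least two `a` with
`N a = 1 = N (2 - a)` -/
theorem two_le_ncard_three (hp : p ≠ 2) :
    2 ≤ Set.ncard {a : GaloisField p 3 | Algebra.norm (ZMod p) a = 1 ∧
      Algebra.norm (ZMod p) (2 - a) = 1} := by
  classical
  haveI : Fintype (GaloisField p 3) := Fintype.ofFinite _
  obtain ⟨c, hc⟩ := exists_no_root p hp
  obtain ⟨a, ha⟩ := exists_root p c hc
  obtain ⟨Cc, hCc⟩ : ∃ Cc : GaloisField p 3, Cc = algebraMap (ZMod p) (GaloisField p 3) c :=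
    ⟨_, rfl⟩
  rw [← hCc] at ha
  have hfrob2 : frobenius (GaloisField p 3) p 2 = 2 := map_ofNat _ 2
  have hfrob : ∀ y : GaloisField p 3, y * (y - 2) * (y - Cc) + (y - 1) = 0 →
      y ^ p * (y ^ p - 2) * (y ^ p - Cc) + (y ^ p - 1) = 0 := by
    intro y hy
    have h1 := congrArg (frobenius (GaloisField p 3) p) hy
    rw [map_add, map_mul, map_mul, map_sub, map_sub, map_sub, map_one, map_zero, hfrob2] at h1
    have h2 : frobenius (GaloisField p 3) p Cc = Cc := by
      rw [frobenius_def, hCc, ← map_pow, ZMod.pow_card]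
    rw [h2, frobenius_def] at h1
    exact h1
  have hb := hfrob a ha
  have hd := hfrob (a ^ p) hb
  have hnot : ∀ y : GaloisField p 3, y * (y - 2) * (y - Cc) + (y - 1) = 0 → y ^ p ≠ y := by
    intro y hy hyp
    obtain ⟨r, hr⟩ := exists_of_pow_eq p y hyp
    apply hc r
    apply (algebraMap (ZMod p) (GaloisField p 3)).injective
    rw [map_zero, map_add, map_mul, map_mul, map_sub, map_sub, map_sub, map_one, map_ofNat, ← hr,
      ← hCc]
    exact hy
  have h12 : a ≠ a ^ p := fun h => hnot a ha h.symm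
  have h23 : a ^ p ≠ (a ^ p) ^ p := fun h => hnot _ hb h.symm
  have hcardF : Fintype.card (GaloisField p 3) = p ^ 3 := by
    rw [← Nat.card_eq_fintype_card]
    exact GaloisField.card p 3 (by norm_num)
  have h13 : a ≠ (a ^ p) ^ p := by
    intro h
    have h3 : ((a ^ p) ^ p) ^ p = a := by
      have h4 := FiniteField.pow_card a
      rw [hcardF] at h4
      rw [← pow_mul, ← pow_mul]
      rw [show p * (p * p) = p ^ 3 by ring]
      exact h4
    apply h12
    calc a = ((a ^ p) ^ p) ^ p := h3.symm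
      _ = a ^ p := by rw [← h]
  obtain ⟨hN1, hN2⟩ := vieta Cc a (a ^ p) ((a ^ p) ^ p) h12 h13 h23 ha hb hd
  have hnorm : ∀ x : GaloisField p 3,
      algebraMap (ZMod p) (GaloisField p 3) (Algebra.norm (ZMod p) x) = x * x ^ p * (x ^ p) ^ p := by
    intro x
    rw [FiniteField.algebraMap_norm_eq_prod_pow, GaloisField.finrank p (by norm_num), Nat.card_zmod,
      Finset.prod_range_succ, Finset.prod_range_succ, Finset.prod_range_one, pow_zero, pow_one,
      pow_one, pow_two, pow_mul]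
  have hNa : Algebra.norm (ZMod p) a = 1 := by
    apply (algebraMap (ZMod p) (GaloisField p 3)).injective
    rw [hnorm, map_one, hN1]
  have hsubp : ∀ y : GaloisField p 3, (2 - y) ^ p = 2 - y ^ p := by
    intro y
    have h1 := (frobenius (GaloisField p 3) p).map_sub 2 y
    rw [hfrob2, frobenius_def, frobenius_def] at h1
    exact h1
  have hNb : Algebra.norm (ZMod p) (2 - a) = 1 := by
    apply (algebraMap (ZMod p) (GaloisField p 3)).injective
    rw [hnorm, map_one, hsubp, hsubp, hN2]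
  have ha1 : (1 : GaloisField p 3) ≠ a := by
    intro h
    apply h12
    rw [← h, one_pow]
  have hsub : ({1, a} : Set (GaloisField p 3)) ⊆ {a : GaloisField p 3 |
      Algebra.norm (ZMod p) a = 1 ∧ Algebra.norm (ZMod p) (2 - a) = 1} := by
    intro x hx
    rcases hx with rfl | rfl
    · refine ⟨map_one _, ?_⟩
      rw [show (2 : GaloisField p 3) - 1 = 1 by ring, map_one]
    · exact ⟨hNa, hNb⟩
  have h := Set.ncard_le_ncard hsub (Set.toFinite _)
  rw [Set.ncard_pair ha1] at h
  exact h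

end cubic

end Cfsg.Agent.Lib.helper5.NormPair
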