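import Mathlib

namespace Cfsg.Agent.Lib.helper5

open scoped BigOperators

/-- shift representation of a commutative group `Q` on functions `Q → A` -/
noncomputable def pitShift (Q A : Type*) [CommGroup Q] [AddCommGroup A] :
    Q →* Module.End ℤ (Q → A) where
  toFun q := LinearMap.funLeft ℤ A (fun x => q * x)
  map_one' := by
    ext f x
    simp [LinearMap.funLeft_apply]
  map_mul' q q' := by
    ext f x
    simp [LinearMap.funLeft_apply, mul_comm, mul_left_comm]

/-- the induced action of the group ring -/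
noncomputable def pitPhi (Q A : Type*) [CommGroup Q] [AddCommGroup A] :
    MonoidAlgebra ℤ Q →ₐ[ℤ] Module.End ℤ (Q → A) :=
  MonoidAlgebra.lift ℤ (Module.End ℤ (Q → A)) Q (pitShift Q A)

theorem pitPhi_of {Q A : Type*} [CommGroup Q] [AddCommGroup A] (q : Q) (f : Q → A) (x : Q) :
    pitPhi Q A (MonoidAlgebra.of ℤ Q q) f x = f (q * x) := by
  unfold pitPhi
  rw [MonoidAlgebra.lift_of]
  rfl

theorem pitPhi_apply {Q A : Type*} [CommGroup Q] [Fintype Q] [AddCommGroup A]
    (D : MonoidAlgebra ℤ Q) (f : Q → A) (x : Q) :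
    pitPhi Q A D f x = ∑ y : Q, D.coeff y • f (y * x) := by
  unfold pitPhi
  rw [MonoidAlgebra.lift_apply, Finsupp.sum_fintype _ _ (by simp)]
  simp [LinearMap.sum_apply, Finset.sum_apply, pitShift, LinearMap.funLeft_apply]

/-- augmentation -/
noncomputable def pitEps (Q : Type*) [CommGroup Q] : MonoidAlgebra ℤ Q →ₐ[ℤ] ℤ :=
  MonoidAlgebra.lift ℤ ℤ Q (1 : Q →* ℤ)

theorem pitEps_of {Q : Type*} [CommGroup Q] (q : Q) :
    pitEps Q (MonoidAlgebra.of ℤ Q q) = 1 := by
  unfold pitEps
  rw [MonoidAlgebra.lift_of]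
  rfl

theorem pitEps_apply {Q : Type*} [CommGroup Q] [Fintype Q] (D : MonoidAlgebra ℤ Q) :
    pitEps Q D = ∑ y : Q, D.coeff y := by
  unfold pitEps
  rw [MonoidAlgebra.lift_apply, Finsupp.sum_fintype _ _ (by simp)]
  simp

/-- the determinant trick -/
theorem pit_det_trick {R : Type*} [CommRing R] {B : Type*} [AddCommGroup B]
    (Φ : R →+* Module.End ℤ B) {K : Type*} [Fintype K] [DecidableEq K]
    (Γ : Matrix K K R) (v : K → B) (h : ∀ j, ∑ k, Φ (Γ j k) (v k) = 0) (k : K) :
    Φ Γ.det (v k) = 0 := by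
  calc Φ Γ.det (v k) = ∑ l, Φ ((Γ.adjugate * Γ) k l) (v l) := by
        rw [Matrix.adjugate_mul, Finset.sum_eq_single k]
        · simp [Matrix.smul_apply]
        · intro b _ hb
          simp [Matrix.smul_apply, Ne.symm hb]
        · simp
    _ = ∑ l, ∑ j, Φ (Γ.adjugate k j) (Φ (Γ j l) (v l)) := by
        simp [Matrix.mul_apply, map_sum, map_mul, LinearMap.sum_apply]
    _ = ∑ j, Φ (Γ.adjugate k j) (∑ l, Φ (Γ j l) (v l)) := by
        rw [Finset.sum_comm]
        simp [map_sum]
    _ = 0 := by simp [h]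

/-- the determinant trick, module version -/
theorem pit_det_trick' {R : Type*} [CommRing R] {B : Type*} [AddCommGroup B] [Module R B]
    {K : Type*} [Fintype K] [DecidableEq K]
    (Γ : Matrix K K R) (v : K → B) (h : ∀ j, ∑ k, Γ j k • v k = 0) (k : K) :
    Γ.det • v k = 0 := by
  calc Γ.det • v k = ∑ l, (Γ.adjugate * Γ) k l • v l := by
        rw [Matrix.adjugate_mul, Finset.sum_eq_single k]
        · simp [Matrix.smul_apply]
        · intro b _ hb
          simp [Matrix.smul_apply, Ne.symm hb]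
        · simp
    _ = ∑ l, ∑ j, Γ.adjugate k j • (Γ j l • v l) := by
        simp [Matrix.mul_apply, Finset.sum_smul, mul_smul]
    _ = ∑ j, Γ.adjugate k j • (∑ l, Γ j l • v l) := by
        rw [Finset.sum_comm]
        simp [Finset.smul_sum]
    _ = 0 := by simp [h]

end Cfsg.Agent.Lib.helper5
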