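import Mathlib
import Cfsg.Agent.Lib.helper5.PITa

namespace Cfsg.Agent.Lib.helper5

open scoped BigOperators commutatorElement

set_option maxHeartbeats 1600000 in
theorem pit_core {G : Type*} [Group G] [Finite G] {A : Type*} [AddCommGroup A]
    [Fintype (Abelianization G)] (F : G → Abelianization G → A)
    (hF : ∀ g h x, F (g * h) x = F g (Abelianization.of h * x) + F h x) (g₀ : G) :
    ∑ x, F g₀ x = 0 := by
  classical
  haveI : Fintype G := Fintype.ofFinite G
  let π : G →* Abelianization G := Abelianization.of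
  have hπsurj : Function.Surjective π := QuotientGroup.mk_surjective
  have hker : ∀ a : G, a ∈ commutator G ↔ π a = 1 := by
    intro a
    rw [← Abelianization.ker_of, MonoidHom.mem_ker]
  let Φ : MonoidAlgebra ℤ (Abelianization G) →ₐ[ℤ] Module.End ℤ (Abelianization G → A × ℤ) :=
    pitPhi _ _
  letI modI : Module (MonoidAlgebra ℤ (Abelianization G)) (Abelianization G → A × ℤ) :=
    Module.compHom _
      (Φ : MonoidAlgebra ℤ (Abelianization G) →+* Module.End ℤ (Abelianization G → A × ℤ))
  have hsmul : ∀ (r : MonoidAlgebra ℤ (Abelianization G)) (w : Abelianization G → A × ℤ),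
      r • w = Φ r w := fun _ _ => rfl
  have hof : ∀ (q : Abelianization G) (w : Abelianization G → A × ℤ) (x : Abelianization G),
      (MonoidAlgebra.of ℤ (Abelianization G) q • w) x = w (q * x) := by
    intro q w x
    rw [hsmul]
    exact pitPhi_of q w x
  let u : Abelianization G → ℤ := fun x => if x = 1 then 1 else 0
  let m : G → (Abelianization G → A × ℤ) := fun g x => (F g x, u (π g * x) - u x)
  have hm : ∀ g h, m (g * h) = MonoidAlgebra.of ℤ (Abelianization G) (π h) • m g + m h := by
    intro g h
    funext x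
    rw [Pi.add_apply, hof]
    refine Prod.ext ?_ ?_
    · exact hF g h x
    · show u (π (g * h) * x) - u x = (u (π g * (π h * x)) - u (π h * x)) + (u (π h * x) - u x)
      rw [map_mul, mul_assoc]
      ring
  have hm1 : m 1 = 0 := by
    have h := hm 1 1
    rw [mul_one, map_one, map_one, one_smul] at h
    exact left_eq_add.mp h
  have hminv : ∀ a : G, m a⁻¹ = MonoidAlgebra.of ℤ (Abelianization G) (π a)⁻¹ • (-m a) := by
    intro a
    have h := hm a⁻¹ a
    rw [inv_mul_cancel, hm1] at h
    have h2 : MonoidAlgebra.of ℤ (Abelianization G) (π a) • m a⁻¹ = -m a := by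
      rw [eq_neg_iff_add_eq_zero]
      exact h.symm
    rw [← h2, smul_smul, ← map_mul, inv_mul_cancel, map_one, one_smul]
  -- structure of the abelianization
  obtain ⟨ι, hι, e, he, ⟨ψ⟩⟩ :=
    CommGroup.equiv_prod_multiplicative_zmod_of_finite (Abelianization G)
  haveI : Fintype ι := hι
  haveI hne : ∀ i, NeZero (e i) := fun i => ⟨by have := he i; omega⟩
  let σ : ι → Abelianization G := fun i =>
    ψ.symm (Pi.mulSingle i (Multiplicative.ofAdd (1 : ZMod (e i))))
  have hσe : ∀ i, σ i ^ e i = 1 := by
    intro i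
    show (ψ.symm (Pi.mulSingle i (Multiplicative.ofAdd (1 : ZMod (e i))))) ^ e i = 1
    rw [← map_pow, ← Pi.mulSingle_pow, ← ofAdd_nsmul]
    simp
  have hσgen : ∀ q : Abelianization G, ∃ k : ι → ℕ, q = ∏ i, σ i ^ k i := by
    intro q
    refine ⟨fun i => (Multiplicative.toAdd (ψ q i)).val, ?_⟩
    apply ψ.injective
    rw [map_prod]
    conv_lhs => rw [← Finset.univ_prod_mulSingle (ψ q)]
    refine Finset.prod_congr rfl ?_
    intro i _
    show _ = ψ ((ψ.symm (Pi.mulSingle i (Multiplicative.ofAdd (1 : ZMod (e i))))) ^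
      (Multiplicative.toAdd (ψ q i)).val)
    rw [map_pow, MulEquiv.apply_symm_apply, ← Pi.mulSingle_pow, ← ofAdd_nsmul]
    congr 1
    simp
  have hcard : ∏ i, e i = Fintype.card (Abelianization G) := by
    rw [← Nat.card_eq_fintype_card, Nat.card_congr ψ.toEquiv, Nat.card_pi]
    refine Finset.prod_congr rfl ?_
    intro i _
    exact (Nat.card_zmod (e i)).symm
  choose gI hgI using fun i => hπsurj (σ i)
  -- generators
  let v : ι ⊕ ↥(commutator G) → (Abelianization G → A × ℤ) :=
    Sum.elim (fun i => m (gI i)) (fun a => m (a : G))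
  let M : Submodule (MonoidAlgebra ℤ (Abelianization G)) (Abelianization G → A × ℤ) :=
    Submodule.span _ (Set.range v)
  have hvM : ∀ k, v k ∈ M := fun k => Submodule.subset_span ⟨k, rfl⟩
  let S : Subgroup G :=
    { carrier := {g | m g ∈ M}
      mul_mem' := by
        intro a b ha hb
        show m (a * b) ∈ M
        rw [hm]
        exact M.add_mem (M.smul_mem _ ha) hb
      one_mem' := by
        show m 1 ∈ M
        rw [hm1]
        exact M.zero_mem
      inv_mem' := by
        intro a ha
        show m a⁻¹ ∈ M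
        rw [hminv]
        exact M.smul_mem _ (M.neg_mem ha) }
  have hHS : ∀ a ∈ commutator G, a ∈ S := fun a ha => hvM (Sum.inr ⟨a, ha⟩)
  have hgIS : ∀ i, gI i ∈ S := fun i => hvM (Sum.inl i)
  have hS : ∀ g, m g ∈ M := by
    intro g
    obtain ⟨k, hk⟩ := hσgen (π g)
    have h1 : π g ∈ Subgroup.map π S := by
      rw [hk]
      refine Subgroup.prod_mem _ (fun i _ => pow_mem ?_ _)
      rw [← hgI i]
      exact Subgroup.mem_map_of_mem π (hgIS i)
    obtain ⟨s, hs, hsg⟩ := h1
    have h2 : s⁻¹ * g ∈ commutator G := by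
      rw [hker, map_mul, map_inv, hsg, inv_mul_cancel]
    have h3 : g = s * (s⁻¹ * g) := by group
    have h4 : g ∈ S := by
      rw [h3]
      exact S.mul_mem hs (hHS _ h2)
    exact h4
  -- the augmentation ideal part
  let ε : MonoidAlgebra ℤ (Abelianization G) →+* ℤ := (pitEps (Abelianization G) : _ →+* ℤ)
  have hεof : ∀ q : Abelianization G, ε (MonoidAlgebra.of ℤ (Abelianization G) q) = 1 :=
    fun q => pitEps_of q
  let I : Ideal (MonoidAlgebra ℤ (Abelianization G)) := RingHom.ker ε
  have hIof : ∀ q : Abelianization G, MonoidAlgebra.of ℤ (Abelianization G) q - 1 ∈ I := by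
    intro q
    show ε (MonoidAlgebra.of ℤ (Abelianization G) q - 1) = 0
    rw [map_sub, hεof, map_one, sub_self]
  let J : Submodule (MonoidAlgebra ℤ (Abelianization G)) (Abelianization G → A × ℤ) := I • M
  have hJcomm : ∀ x y : G, m ⁅x, y⁆ ∈ J := by
    intro x y
    have e1 : x * y = ⁅x, y⁆ * (y * x) := by
      rw [commutatorElement_def]; group
    have e2 := hm ⁅x, y⁆ (y * x)
    rw [← e1, hm x y, hm y x] at e2
    have key : MonoidAlgebra.of ℤ (Abelianization G) (π (y * x)) • m ⁅x, y⁆ =
        (MonoidAlgebra.of ℤ (Abelianization G) (π y) - 1) • m x -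
        (MonoidAlgebra.of ℤ (Abelianization G) (π x) - 1) • m y := by
      rw [sub_smul, sub_smul, one_smul, one_smul]
      have e3 := eq_sub_of_add_eq e2.symm
      rw [e3]
      abel
    have h5 : MonoidAlgebra.of ℤ (Abelianization G) (π (y * x)) • m ⁅x, y⁆ ∈ J := by
      rw [key]
      exact J.sub_mem (Submodule.smul_mem_smul (hIof _) (hS x))
        (Submodule.smul_mem_smul (hIof _) (hS y))
    have h6 : m ⁅x, y⁆ = MonoidAlgebra.of ℤ (Abelianization G) (π (y * x))⁻¹ •
        (MonoidAlgebra.of ℤ (Abelianization G) (π (y * x)) • m ⁅x, y⁆) := by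
      rw [smul_smul, ← map_mul, inv_mul_cancel, map_one, one_smul]
    rw [h6]
    exact J.smul_mem _ h5
  let S' : Subgroup G :=
    { carrier := {g | g ∈ commutator G ∧ m g ∈ J}
      mul_mem' := by
        intro a b ha hb
        refine ⟨mul_mem ha.1 hb.1, ?_⟩
        show m (a * b) ∈ J
        rw [hm, (hker b).mp hb.1, map_one, one_smul]
        exact J.add_mem ha.2 hb.2
      one_mem' := by
        refine ⟨one_mem _, ?_⟩
        show m 1 ∈ J
        rw [hm1]
        exact J.zero_mem
      inv_mem' := by
        intro a ha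
        refine ⟨inv_mem ha.1, ?_⟩
        show m a⁻¹ ∈ J
        rw [hminv]
        exact J.smul_mem _ (J.neg_mem ha.2) }
  have hHJ : ∀ a ∈ commutator G, m a ∈ J := by
    have h7 : commutator G ≤ S' := by
      rw [commutator_eq_closure, Subgroup.closure_le]
      rintro _ ⟨x, y, rfl⟩
      refine ⟨?_, hJcomm x y⟩
      rw [commutator_eq_closure]
      exact Subgroup.subset_closure ⟨x, y, rfl⟩
    exact fun a ha => (h7 ha).2
  -- coefficients for the elements of the commutator subgroup
  have hβex : ∀ a : ↥(commutator G), ∃ β : ι ⊕ ↥(commutator G) → MonoidAlgebra ℤ (Abelianization G),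
      (∀ k, ε (β k) = 0) ∧ ∑ k, β k • v k = m (a : G) := by
    intro a
    have h8 : m (a : G) ∈ I • Submodule.span (MonoidAlgebra ℤ (Abelianization G)) (Set.range v) :=
      hHJ a a.2
    rw [Submodule.mem_ideal_smul_span_iff_exists_sum] at h8
    obtain ⟨c, hc, hsum⟩ := h8
    refine ⟨fun k => c k, fun k => hc k, ?_⟩
    rw [← hsum, Finsupp.sum_fintype]
    intro i
    exact zero_smul _ _
  choose β hβI hβ using hβex
  -- the relations
  let N : ι → MonoidAlgebra ℤ (Abelianization G) := fun i =>
    ∑ j ∈ Finset.range (e i), (MonoidAlgebra.of ℤ (Abelianization G) (σ i)) ^ j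
  have hpow : ∀ (g : G) (k : ℕ), m (g ^ k) =
      (∑ j ∈ Finset.range k, (MonoidAlgebra.of ℤ (Abelianization G) (π g)) ^ j) • m g := by
    intro g k
    induction k with
    | zero => rw [pow_zero, hm1, Finset.range_zero, Finset.sum_empty, zero_smul]
    | succ k ih =>
      rw [pow_succ, hm, ih, geom_sum_succ, add_smul, one_smul, mul_smul]
  have haI : ∀ i, gI i ^ e i ∈ commutator G := by
    intro i
    rw [hker, map_pow, hgI, hσe]
  let aI : ι → ↥(commutator G) := fun i => ⟨gI i ^ e i, haI i⟩
  have hrel1 : ∀ i, N i • m (gI i) - m (aI i : G) = 0 := by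
    intro i
    have h9 := hpow (gI i) (e i)
    rw [hgI] at h9
    show N i • m (gI i) - m (gI i ^ e i) = 0
    rw [h9, sub_self]
  let Γ : Matrix (ι ⊕ ↥(commutator G)) (ι ⊕ ↥(commutator G)) (MonoidAlgebra ℤ (Abelianization G)) :=
    Matrix.fromBlocks (Matrix.diagonal N)
      (Matrix.of fun i b => if b = aI i then (-1 : MonoidAlgebra ℤ (Abelianization G)) else 0)
      (Matrix.of fun a j => - β a (Sum.inl j))
      (Matrix.of fun a b => (if a = b then (1 : MonoidAlgebra ℤ (Abelianization G)) else 0)
        - β a (Sum.inr b))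
  have hΓ : ∀ j, ∑ k, Γ j k • v k = 0 := by
    intro j
    rw [Fintype.sum_sum_type]
    cases j with
    | inl i =>
      have t1 : ∑ j' : ι, Γ (Sum.inl i) (Sum.inl j') • v (Sum.inl j') = N i • m (gI i) := by
        rw [Finset.sum_eq_single i]
        · simp [Γ, v]
        · intro b _ hb
          simp [Γ, Matrix.diagonal_apply, Ne.symm hb]
        · simp
      have t2 : ∑ b : ↥(commutator G), Γ (Sum.inl i) (Sum.inr b) • v (Sum.inr b)
          = - m (aI i : G) := by
        rw [Finset.sum_eq_single (aI i)]
        · simp [Γ, v]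
        · intro b _ hb
          simp [Γ, hb]
        · simp
      rw [t1, t2, ← sub_eq_add_neg]
      exact hrel1 i
    | inr a =>
      have t1 : ∑ j' : ι, Γ (Sum.inr a) (Sum.inl j') • v (Sum.inl j')
          = - ∑ j' : ι, β a (Sum.inl j') • v (Sum.inl j') := by
        rw [← Finset.sum_neg_distrib]
        refine Finset.sum_congr rfl ?_
        intro j' _
        simp [Γ]
      have t2 : ∑ b : ↥(commutator G), Γ (Sum.inr a) (Sum.inr b) • v (Sum.inr b)
          = m (a : G) - ∑ b : ↥(commutator G), β a (Sum.inr b) • v (Sum.inr b) := by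
        have t3 : ∀ b : ↥(commutator G), Γ (Sum.inr a) (Sum.inr b) • v (Sum.inr b)
            = (if a = b then m (b : G) else 0) - β a (Sum.inr b) • v (Sum.inr b) := by
          intro b
          by_cases hab : a = b
          · simp [Γ, v, hab, sub_smul]
          · simp [Γ, v, hab]
        rw [Finset.sum_congr rfl (fun b _ => t3 b), Finset.sum_sub_distrib,
          Finset.sum_ite_eq]
        simp
      have t4 := hβ a
      rw [Fintype.sum_sum_type] at t4
      rw [t1, t2, ← t4]
      abel
  have hdet : ∀ k, Γ.det • v k = 0 := pit_det_trick' Γ v hΓ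
  have hdetM : ∀ w ∈ M, Γ.det • w = 0 := by
    intro w hw
    refine Submodule.span_induction ?_ ?_ ?_ ?_ hw
    · rintro _ ⟨k, rfl⟩
      exact hdet k
    · exact smul_zero _
    · intro x y _ _ hx hy
      rw [smul_add, hx, hy, add_zero]
    · intro r x _ hx
      rw [smul_comm, hx, smul_zero]
  have hD : ∀ g, Γ.det • m g = 0 := fun g => hdetM _ (hS g)
  -- the augmentation of the determinant
  have hεN : ∀ i, ε (N i) = (e i : ℤ) := by
    intro i
    show ε (∑ j ∈ Finset.range (e i), (MonoidAlgebra.of ℤ (Abelianization G) (σ i)) ^ j) = _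
    rw [map_sum]
    have h20 : ∀ j ∈ Finset.range (e i),
        ε ((MonoidAlgebra.of ℤ (Abelianization G) (σ i)) ^ j) = 1 := by
      intro j _
      rw [map_pow, hεof, one_pow]
    rw [Finset.sum_congr rfl h20]
    simp
  have hεdet : ε Γ.det = (Fintype.card (Abelianization G) : ℤ) := by
    rw [RingHom.map_det, RingHom.mapMatrix_apply]
    have h10 : Γ.map ε = Matrix.fromBlocks (Matrix.diagonal fun i => (e i : ℤ))
        ((Matrix.of fun i b => if b = aI i then (-1 : MonoidAlgebra ℤ (Abelianization G))
          else 0).map ε) 0 1 := by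
      show (Matrix.fromBlocks _ _ _ _).map ε = _
      rw [Matrix.fromBlocks_map]
      congr 1
      · rw [Matrix.diagonal_map (map_zero _)]
        congr 1
        funext i
        exact hεN i
      · ext a j
        simp [hβI]
      · ext a b
        simp [hβI, Matrix.one_apply]
    rw [h10, Matrix.det_fromBlocks_zero₂₁, Matrix.det_diagonal, Matrix.det_one, mul_one,
      ← hcard]
    push_cast
    rfl
  -- coefficients of the determinant
  have hDx : ∀ (g : G) (x : Abelianization G),
      ∑ y : Abelianization G, Γ.det.coeff y • m g (y * x) = 0 := by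
    intro g x
    have h11 := congrFun (hD g) x
    rw [hsmul, pitPhi_apply] at h11
    exact h11
  have hconst : ∀ q : Abelianization G, Γ.det.coeff q = Γ.det.coeff 1 := by
    intro q
    obtain ⟨g, hg⟩ := hπsurj q⁻¹
    have h12 := congrArg Prod.snd (hDx g 1)
    rw [Prod.snd_sum] at h12
    have h13 : ∀ y : Abelianization G, (Γ.det.coeff y • m g (y * 1)).2
        = (if y = q then Γ.det.coeff y else 0) - (if y = 1 then Γ.det.coeff y else 0) := by
      intro y
      show Γ.det.coeff y • (u (π g * (y * 1)) - u (y * 1)) = _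
      rw [hg, mul_one]
      show Γ.det.coeff y • ((if q⁻¹ * y = 1 then (1:ℤ) else 0) - (if y = 1 then (1:ℤ) else 0)) = _
      have h14 : q⁻¹ * y = 1 ↔ y = q := by
        rw [inv_mul_eq_one, eq_comm]
      simp only [h14, smul_eq_mul, mul_sub, mul_ite, mul_one, mul_zero]
    rw [Finset.sum_congr rfl (fun y _ => h13 y), Finset.sum_sub_distrib, Finset.sum_ite_eq',
      Finset.sum_ite_eq'] at h12
    simp only [Finset.mem_univ, if_true] at h12
    exact sub_eq_zero.mp h12
  have hD1 : Γ.det.coeff 1 = 1 := by
    have h15 : ε Γ.det = ∑ y : Abelianization G, Γ.det.coeff y := pitEps_apply _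
    rw [hεdet, Finset.sum_congr rfl (fun y _ => hconst y), Finset.sum_const, Finset.card_univ,
      nsmul_eq_mul] at h15
    have h16 : (Fintype.card (Abelianization G) : ℤ) ≠ 0 := by
      exact_mod_cast Fintype.card_ne_zero
    have h17 : (Fintype.card (Abelianization G) : ℤ) * 1
        = (Fintype.card (Abelianization G) : ℤ) * Γ.det.coeff 1 := by
      rw [mul_one]; exact h15
    exact (mul_left_cancel₀ h16 h17).symm
  have h18 := congrArg Prod.fst (hDx g₀ 1)
  rw [Prod.fst_sum] at h18
  have h19 : ∀ y : Abelianization G, (Γ.det.coeff y • m g₀ (y * 1)).1 = F g₀ y := by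
    intro y
    show Γ.det.coeff y • F g₀ (y * 1) = F g₀ y
    rw [hconst, hD1, one_smul, mul_one]
  rw [Finset.sum_congr rfl (fun y _ => h19 y)] at h18
  exact h18

end Cfsg.Agent.Lib.helper5
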