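import Mathlib

set_option autoImplicit false

/-!
# Rank lemmas

* `rank_map_field`: the rank of a square matrix over a field is unchanged under a field
  homomorphism.
* `rank_mul_of_left_inv`: `rank (A * U) = card 𝔗` when `U * A = 1`.
* `rank_smul_of_ne_zero`.
-/

namespace Cfsg.Agent.Lib.helper5

section rk

theorem rank_normalForm {K : Type*} [Field K] (r s : ℕ) :
    (Matrix.fromBlocks (1 : Matrix (Fin r) (Fin r) K) 0 0
      (0 : Matrix (Fin s) (Fin s) K)).rank = r := by
  classical
  have h : Matrix.fromBlocks (1 : Matrix (Fin r) (Fin r) K) 0 0 (0 : Matrix (Fin s) (Fin s) K)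
      = Matrix.diagonal (Sum.elim (fun _ : Fin r => (1 : K)) (fun _ : Fin s => (0 : K))) := by
    rw [← Matrix.fromBlocks_diagonal, Matrix.diagonal_one, Matrix.diagonal_zero]
  rw [h, Matrix.rank_diagonal]
  have hbij : Function.Bijective (fun j : Fin r =>
      (⟨Sum.inl j, by simp⟩ : {i : Fin r ⊕ Fin s //
        Sum.elim (fun _ : Fin r => (1 : K)) (fun _ : Fin s => (0 : K)) i ≠ 0})) := by
    constructor
    · intro j j' hjj
      exact Sum.inl.inj (congrArg Subtype.val hjj)
    · rintro ⟨i | i, hi⟩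
      · exact ⟨i, rfl⟩
      · exact absurd rfl hi
  rw [← Fintype.card_congr (Equiv.ofBijective _ hbij), Fintype.card_fin]

theorem rank_map_field {F K : Type*} [Field F] [Field K] (φ : F →+* K) {m : Type*} [Fintype m]
    [DecidableEq m] (A : Matrix m m F) : (A.map φ).rank = A.rank := by
  obtain ⟨V, U, e, hV, hU, hVAU⟩ := Matrix.exists_rank_normal_form A
  have hV' : IsUnit (V.map φ).det := by
    have h1 := (Matrix.isUnit_iff_isUnit_det V).mp hV
    have h2 := h1.map φ
    rwa [RingHom.map_det] at h2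
  have hU' : IsUnit (U.map φ).det := by
    have h1 := (Matrix.isUnit_iff_isUnit_det U).mp hU
    have h2 := h1.map φ
    rwa [RingHom.map_det] at h2
  have h1 : V.map φ * A.map φ * U.map φ
      = (Matrix.fromBlocks (1 : Matrix (Fin A.rank) (Fin A.rank) K) 0 0
        (0 : Matrix (Fin (Fintype.card m - A.rank)) (Fin (Fintype.card m - A.rank)) K)).submatrix
          e e := by
    rw [← Matrix.map_mul, ← Matrix.map_mul, hVAU]
    ext i j
    simp only [Matrix.map_apply, Matrix.submatrix_apply]
    rcases e i with a | a <;> rcases e j with b | b <;>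
      simp [Matrix.fromBlocks, Matrix.one_apply, apply_ite φ]
  calc (A.map φ).rank = (V.map φ * A.map φ * U.map φ).rank := by
        rw [Matrix.rank_mul_eq_left_of_isUnit_det _ _ hU',
          Matrix.rank_mul_eq_right_of_isUnit_det _ _ hV']
    _ = A.rank := by rw [h1, Matrix.rank_submatrix, rank_normalForm]

theorem rank_mul_of_left_inv {K : Type*} [Field K] {ι 𝔗 : Type*} [Fintype ι] [Fintype 𝔗]
    [DecidableEq 𝔗] (A : Matrix ι 𝔗 K) (U : Matrix 𝔗 ι K) (h : U * A = 1) :
    (A * U).rank = Fintype.card 𝔗 := by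
  apply le_antisymm
  · exact (Matrix.rank_mul_le_left A U).trans (Matrix.rank_le_card_width A)
  · have h1 : (1 : Matrix 𝔗 𝔗 K) = U * (A * U) * A := by
      rw [Matrix.mul_assoc, Matrix.mul_assoc, h, Matrix.mul_one, h]
    calc Fintype.card 𝔗 = (1 : Matrix 𝔗 𝔗 K).rank := Matrix.rank_one.symm
      _ = (U * (A * U) * A).rank := by rw [← h1]
      _ ≤ (U * (A * U)).rank := Matrix.rank_mul_le_left _ _
      _ ≤ (A * U).rank := Matrix.rank_mul_le_right _ _

theorem rank_smul_of_ne_zero {K : Type*} [Field K] {ι : Type*} [Fintype ι] [DecidableEq ι]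
    (c : K) (hc : c ≠ 0) (A : Matrix ι ι K) : (c • A).rank = A.rank := by
  rw [Matrix.smul_eq_diagonal_mul]
  apply Matrix.rank_mul_eq_right_of_isUnit_det
  rw [Matrix.det_diagonal, Finset.prod_const]
  exact (IsUnit.mk0 c hc).pow _

theorem rank_mul_diagonal_of_ne_zero {K : Type*} [Field K] {ι : Type*} [Fintype ι]
    [DecidableEq ι] (c : ι → K) (hc : ∀ i, c i ≠ 0) (A : Matrix ι ι K) :
    (A * Matrix.diagonal c).rank = A.rank := by
  apply Matrix.rank_mul_eq_left_of_isUnit_det
  rw [Matrix.det_diagonal]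
  exact IsUnit.mk0 _ (Finset.prod_ne_zero_iff.mpr (fun i _ => hc i))

end rk

end Cfsg.Agent.Lib.helper5
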