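import Mathlib
import Cfsg.Prelude.Def_OddOrderLocal
import Cfsg.Agent.Lib.helper1.Hall
import Cfsg.Agent.Lib.helper1.Fitting

set_option autoImplicit false
open Pointwise
open scoped commutatorElement

namespace Cfsg.Agent.Lib.helper5.S1451D

/-- Split a positive natural number into its part with prime factors above `p` and the rest. -/
theorem pi_split (p : ℕ) (n : ℕ) (hn : n ≠ 0) :
    ∃ m k : ℕ, n = m * k ∧ (∀ s : ℕ, s.Prime → s ∣ m → p < s) ∧
      (∀ s : ℕ, s.Prime → s ∣ k → s ≤ p) := by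
  induction n using Nat.recOnMul with
  | zero => exact absurd rfl hn
  | one =>
    exact ⟨1, 1, rfl, fun s hs h1 => absurd (Nat.dvd_one.mp h1) hs.ne_one,
      fun s hs h1 => absurd (Nat.dvd_one.mp h1) hs.ne_one⟩
  | prime q hq =>
    have hq' : q.Prime := hq
    by_cases hpq : p < q
    · refine ⟨q, 1, (mul_one q).symm, fun s hs hsq => ?_,
        fun s hs h1 => absurd (Nat.dvd_one.mp h1) hs.ne_one⟩
      rw [(Nat.prime_dvd_prime_iff_eq hs hq').mp hsq]; exact hpq
    · refine ⟨1, q, (one_mul q).symm, fun s hs h1 => absurd (Nat.dvd_one.mp h1) hs.ne_one,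
        fun s hs hsq => ?_⟩
      rw [(Nat.prime_dvd_prime_iff_eq hs hq').mp hsq]; exact not_lt.mp hpq
  | mul a b iha ihb =>
    have ha : a ≠ 0 := fun h => hn (by rw [h, zero_mul])
    have hb : b ≠ 0 := fun h => hn (by rw [h, mul_zero])
    obtain ⟨m1, k1, e1, hm1, hk1⟩ := iha ha
    obtain ⟨m2, k2, e2, hm2, hk2⟩ := ihb hb
    refine ⟨m1 * m2, k1 * k2, by rw [e1, e2]; ring, fun s hs hd => ?_, fun s hs hd => ?_⟩
    · rcases (Nat.Prime.dvd_mul hs).mp hd with h | h
      · exact hm1 s hs h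
      · exact hm2 s hs h
    · rcases (Nat.Prime.dvd_mul hs).mp hd with h | h
      · exact hk1 s hs h
      · exact hk2 s hs h

theorem exists_char_hall {G : Type*} [Group G] [Finite G] [Group.IsSolvable G] (p : ℕ)
    (hK : commutator G ≤ Cfsg.fittingSubgroup G)
    (h : ∀ r : ℕ, r.Prime → r ≤ p → ∀ g : G, (∀ s : ℕ, s.Prime → s ∣ orderOf g → p < s) →
      g ∈ Subgroup.centralizer ((Cfsg.pCore r G : Subgroup G) : Set G)) :
    ∃ N : Subgroup G, N.Characteristic ∧ Cfsg.IsPiHall {q | q.Prime ∧ p < q} N := by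
  classical
  obtain ⟨m, k, hmk, hm, hk⟩ := pi_split p (Nat.card G) Nat.card_pos.ne'
  have hcop : m.Coprime k := Nat.coprime_of_dvd fun s hs hsm hsk =>
    absurd (hm s hs hsm) (not_lt.mpr (hk s hs hsk))
  obtain ⟨H, hH⟩ := Cfsg.Agent.Lib.helper1.hall_exists m k hmk hcop
  have hm0 : m ≠ 0 := by
    rintro rfl
    rw [zero_mul] at hmk
    exact Nat.card_pos.ne' hmk
  have hpow : ∀ y ∈ H, y ^ m = 1 := by
    intro y hy
    have h1 : (⟨y, hy⟩ : H) ^ Nat.card H = 1 := pow_card_eq_one'
    rw [hH] at h1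
    have h2 := congrArg Subtype.val h1
    simpa using h2
  have hord : ∀ y ∈ H, ∀ s : ℕ, s.Prime → s ∣ orderOf y → p < s := by
    intro y hy s hs hsd
    exact hm s hs (hsd.trans (orderOf_dvd_of_pow_eq_one (hpow y hy)))
  have hidx : H.index = k := by
    have h1 := H.card_mul_index
    rw [hH, hmk] at h1
    exact Nat.eq_of_mul_eq_mul_left (Nat.pos_of_ne_zero hm0) h1
  have hkey : ∀ z ∈ Subgroup.normalizer (H : Set G), z ^ m = 1 → z ∈ H := by
    intro z hz hzm
    have h1 : (⟨z, hz⟩ : Subgroup.normalizer (H : Set G)) ^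
        (H.subgroupOf (Subgroup.normalizer (H : Set G))).index ∈
          H.subgroupOf (Subgroup.normalizer (H : Set G)) :=
      Subgroup.pow_index_mem _ _
    rw [Subgroup.mem_subgroupOf] at h1
    have h2 : z ^ (H.relIndex (Subgroup.normalizer (H : Set G))) ∈ H := by
      simpa [Subgroup.relIndex] using h1
    have hdvd : H.relIndex (Subgroup.normalizer (H : Set G)) ∣ k := by
      rw [← hidx]
      exact Dvd.intro _ (Subgroup.relIndex_mul_index Subgroup.le_normalizer)
    have hc : (H.relIndex (Subgroup.normalizer (H : Set G))).Coprime (orderOf z) :=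
      Nat.Coprime.coprime_dvd_left hdvd
        (Nat.Coprime.coprime_dvd_right (orderOf_dvd_of_pow_eq_one hzm) hcop.symm)
    obtain ⟨e, he⟩ := exists_pow_eq_self_of_coprime hc
    rw [← he]; exact H.pow_mem h2 e
  have hF : Cfsg.fittingSubgroup G ≤ Subgroup.normalizer (H : Set G) := by
    rw [Cfsg.Agent.Lib.helper1.fitting_eq_iSup_pCore]
    apply iSup_le
    intro r
    have : Fact (r : ℕ).Prime := ⟨r.prop⟩
    by_cases hr : (r : ℕ) ≤ p
    · refine le_trans ?_ (Subgroup.centralizer_le_normalizer _)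
      intro c hc
      rw [Subgroup.mem_centralizer_iff]
      intro y hy
      have h1 := h r r.prop hr y (hord y hy)
      rw [Subgroup.mem_centralizer_iff] at h1
      exact (h1 c hc).symm
    · refine le_trans ?_ Subgroup.le_normalizer
      have hKc : (Nat.card (Cfsg.pCore (r : ℕ) G)).Coprime k := by
        obtain ⟨e, he⟩ := (Cfsg.Agent.Lib.helper1.pCore_isPGroup (r : ℕ) G).exists_card_eq
        rw [he]
        apply Nat.Coprime.pow_left
        rw [Nat.Prime.coprime_iff_not_dvd r.prop]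
        intro hd
        exact hr (hk r r.prop hd)
      obtain ⟨g, hg⟩ := Cfsg.Agent.Lib.helper1.hall_dominance m k hmk hcop H
        (Cfsg.pCore (r : ℕ) G) hH hKc
      intro c hc
      have hn := Cfsg.Agent.Lib.helper1.pCore_normal (r : ℕ) G
      have h1 : g * c * g⁻¹ ∈ Cfsg.pCore (r : ℕ) G := hn.conj_mem c hc g
      have h2 := hg h1
      rw [Subgroup.mem_pointwise_smul_iff_inv_smul_mem] at h2
      simpa [MulAut.smul_def, mul_assoc] using h2
  have hconj : ∀ x y : G, y ∈ H → x * y * x⁻¹ ∈ H := by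
    intro x y hy
    apply hkey
    · have e1 : x * y * x⁻¹ = ⁅x, y⁆ * y := by simp [commutatorElement_def]
      rw [e1]
      refine Subgroup.mul_mem _ (hF (hK ?_)) (Subgroup.le_normalizer hy)
      rw [commutator_def]
      exact Subgroup.commutator_mem_commutator (Subgroup.mem_top x) (Subgroup.mem_top y)
    · rw [conj_pow, hpow y hy]; simp
  haveI hHn : H.Normal := ⟨fun y hy x => hconj x y hy⟩
  refine ⟨H, ?_, ?_⟩
  · rw [Subgroup.characteristic_iff_map_le]
    intro φ z hz
    obtain ⟨y, hy, rfl⟩ := Subgroup.mem_map.mp hz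
    have h1 : (φ y) ^ H.index ∈ H := Subgroup.pow_index_mem H (φ y)
    have hzm : (φ y) ^ m = 1 := by rw [← map_pow, hpow y hy, map_one]
    have hc : (H.index).Coprime (orderOf (φ y)) := by
      rw [hidx]
      exact Nat.Coprime.coprime_dvd_right (orderOf_dvd_of_pow_eq_one hzm) hcop.symm
    obtain ⟨e, he⟩ := exists_pow_eq_self_of_coprime hc
    show φ y ∈ H
    rw [← he]; exact H.pow_mem h1 e
  · refine And.intro ?_ ?_
    · intro q hq hqd
      rw [hH] at hqd
      exact ⟨hq, hm q hq hqd⟩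
    · intro q hq hqπ hqd
      rw [hidx] at hqd
      exact absurd hqπ.2 (not_lt.mpr (hk q hq hqd))

end Cfsg.Agent.Lib.helper5.S1451D
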