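import Mathlib
import Cfsg.Agent.S1453
import Cfsg.Agent.Lib.helper25.S1455Q1

set_option autoImplicit false

namespace Cfsg.Agent.Lib.helper5.S1454F2a

/-- (F2a) of helper25's sub-split of S1454: a narrow `p`-group of rank at least 3 has a characteristic
subgroup `T` of index `p` and an element `e` whose centralizer meets `T` in a group with at most `p`
elements of order dividing `p`. -/
theorem narrow_T {R : Type*} [Group R] [Finite R] (p : ℕ) [Fact p.Prime] (hp : p ≠ 2) (hR : IsPGroup p R) (hRn : Cfsg.IsNarrow p R) (hr3 : ¬ Cfsg.PRankLE p 2 R) : ∃ (e : R) (T : Subgroup R), T.Characteristic ∧ T.index = p ∧ ∀ B : Subgroup R, B ≤ T → (∀ b ∈ B, b * e = e * b) → (∀ b ∈ B, b ^ p = 1) → Nat.card B ≤ p := by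
  classical
  have hpp : p.Prime := Fact.out
  obtain ⟨R₀, R₁, h0, h1, -, hc, hsup⟩ := hRn.resolve_left hr3
  have hcyc : IsCyclic ↥R₀ := isCyclic_of_prime_card h0
  obtain ⟨e0, he0⟩ := hcyc.exists_generator
  -- every element of `R₀` is a power of `e0`
  have hpow0 : ∀ h ∈ R₀, ∃ i : ℤ, h = (e0 : R) ^ i := by
    intro h hh
    obtain ⟨i, hi⟩ := Subgroup.mem_zpowers_iff.mp (he0 ⟨h, hh⟩)
    exact ⟨i, by rw [← Subgroup.coe_zpow, hi]⟩
  have hexp0 : ∀ h ∈ R₀, h ^ p = 1 := by
    intro h hh
    have h2 : (⟨h, hh⟩ : ↥R₀) ^ Nat.card ↥R₀ = 1 := pow_card_eq_one'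
    rw [h0] at h2
    simpa using congrArg Subtype.val h2
  -- `R₀ ⊔ R₁` is abelian
  have hZ : R₀ ⊔ R₁ ≤ Subgroup.centralizer ((R₀ ⊔ R₁ : Subgroup R) : Set R) := by
    apply sup_le
    · intro a ha
      rw [Subgroup.mem_centralizer_iff]
      intro y hy
      have hy' : y ∈ Subgroup.centralizer (R₀ : Set R) := by rw [← hsup]; exact hy
      rw [Subgroup.mem_centralizer_iff] at hy'
      exact (hy' a ha).symm
    · intro b hb
      rw [Subgroup.mem_centralizer_iff]
      intro y hy
      have hle : R₀ ⊔ R₁ ≤ Subgroup.centralizer ({b} : Set R) := by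
        apply sup_le
        · intro a ha
          rw [Subgroup.mem_centralizer_iff]
          intro x hx
          rw [Set.mem_singleton_iff] at hx
          subst hx
          exact (hc a ha x hb).symm
        · intro b' hb'
          rw [Subgroup.mem_centralizer_iff]
          intro x hx
          rw [Set.mem_singleton_iff] at hx
          subst hx
          obtain ⟨g, hg⟩ := h1.exists_generator
          obtain ⟨i, hi⟩ := Subgroup.mem_zpowers_iff.mp (hg ⟨x, hb⟩)
          obtain ⟨j, hj⟩ := Subgroup.mem_zpowers_iff.mp (hg ⟨b', hb'⟩)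
          have hi' : x = (g : R) ^ i := by rw [← Subgroup.coe_zpow, hi]
          have hj' : b' = (g : R) ^ j := by rw [← Subgroup.coe_zpow, hj]
          rw [hi', hj']
          exact zpow_mul_comm (g : R) i j
      have h2 := hle hy
      rw [Subgroup.mem_centralizer_iff] at h2
      exact (h2 b (Set.mem_singleton b)).symm
  have hab : ∀ x ∈ R₀ ⊔ R₁, ∀ y ∈ R₀ ⊔ R₁, x * y = y * x := by
    intro x hx y hy
    have h2 := hZ hy
    rw [Subgroup.mem_centralizer_iff] at h2
    exact h2 x hx
  -- the subgroup `E` of elements of order dividing `p` in `R₀ ⊔ R₁`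
  let E : Subgroup R :=
    { carrier := {x | x ∈ R₀ ⊔ R₁ ∧ x ^ p = 1}
      mul_mem' := by
        intro x y hx hy
        refine ⟨Subgroup.mul_mem _ hx.1 hy.1, ?_⟩
        rw [Commute.mul_pow (show Commute x y from hab x hx.1 y hy.1), hx.2, hy.2, one_mul]
      one_mem' := ⟨Subgroup.one_mem _, one_pow p⟩
      inv_mem' := by
        intro x hx
        exact ⟨Subgroup.inv_mem _ hx.1, by rw [inv_pow, hx.2, inv_one]⟩ }
  have hEmem : ∀ x, x ∈ E ↔ x ∈ R₀ ⊔ R₁ ∧ x ^ p = 1 := fun x => Iff.rfl
  have hE : Cfsg.IsElementaryAbelian p E :=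
    ⟨⟨⟨fun a b => Subtype.ext (hab a a.2.1 b b.2.1)⟩⟩, fun a ha => ha.2⟩
  have hR0E : R₀ ≤ E := fun a ha => ⟨le_sup_left (a := R₀) (b := R₁) ha, hexp0 a ha⟩
  have hEle : Nat.card ↥E ≤ p ^ 2 :=
    Cfsg.Agent.Lib.helper25.S1455Q1.narrow_count p R₀ R₁ E h0 h1 hc (fun x hx => hx.1)
      (fun x hx => hx.2)
  have hEmax : ∀ B : Subgroup R, Cfsg.IsElementaryAbelian p B → E ≤ B → B = E := by
    intro B hB hEB
    refine le_antisymm ?_ hEB
    intro b hb
    refine ⟨?_, hB.2 b hb⟩
    rw [hsup, Subgroup.mem_centralizer_iff]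
    intro h hh
    have h3 := hB.1.is_comm.comm (⟨h, hEB (hR0E hh)⟩ : ↥B) ⟨b, hb⟩
    exact congrArg Subtype.val h3
  have hE2 : Nat.card ↥E = p ^ 2 := by
    obtain ⟨k, hk⟩ := (hR.to_subgroup E).exists_card_eq
    have hdvd : p ∣ Nat.card ↥E := by
      rw [← h0]; exact Subgroup.card_dvd_of_le hR0E
    have hk0 : k ≠ 0 := by
      rintro rfl
      rw [hk, pow_zero] at hdvd
      exact hpp.one_lt.ne' (Nat.dvd_one.mp hdvd)
    have hk2 : k ≤ 2 := by
      rw [hk] at hEle
      exact (Nat.pow_le_pow_iff_right hpp.one_lt).mp hEle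
    have hk12 : k = 1 ∨ k = 2 := by omega
    rcases hk12 with rfl | rfl
    · exfalso
      rw [pow_one] at hk
      have hER0 : R₀ = E := Subgroup.eq_of_le_of_card_ge hR0E (by rw [hk, h0])
      -- a central element of order `p`
      haveI : Nontrivial R := by
        have : 1 < Nat.card R := lt_of_lt_of_le (by rw [h0]; exact hpp.one_lt)
          (Subgroup.card_le_card_group R₀)
        exact Finite.one_lt_card_iff_nontrivial.mp this
      haveI : Nontrivial ↥(Subgroup.center R) := hR.center_nontrivial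
      have hcp : p ∣ Nat.card ↥(Subgroup.center R) := by
        obtain ⟨m, hm⟩ := (hR.to_subgroup (Subgroup.center R)).exists_card_eq
        have hm0 : m ≠ 0 := by
          rintro rfl
          rw [pow_zero] at hm
          have := Finite.one_lt_card_iff_nontrivial.mpr (inferInstance : Nontrivial ↥(Subgroup.center R))
          omega
        rw [hm]; exact dvd_pow_self p hm0
      obtain ⟨z, hz⟩ := exists_prime_orderOf_dvd_card' p hcp
      have hzc : (z : R) ∈ Subgroup.center R := z.2
      have hzp : (z : R) ^ p = 1 := by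
        have := pow_orderOf_eq_one z
        rw [hz] at this
        simpa using congrArg Subtype.val this
      have hz1 : (z : R) ≠ 1 := by
        intro h
        have : z = 1 := Subtype.ext h
        rw [this, orderOf_one] at hz
        exact hpp.one_lt.ne hz
      have hzC : (z : R) ∈ R₀ ⊔ R₁ := by
        rw [hsup, Subgroup.mem_centralizer_iff]
        intro h _
        exact (Subgroup.mem_center_iff.mp hzc h)
      have hzR0 : (z : R) ∈ R₀ := by rw [hER0]; exact ⟨hzC, hzp⟩
      -- `R₀` is generated by `z`, hence central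
      have hR0c : R₀ ≤ Subgroup.center R := by
        have hgen : Subgroup.zpowers (⟨(z : R), hzR0⟩ : ↥R₀) = ⊤ :=
          zpowers_eq_top_of_prime_card h0 (fun h => hz1 (congrArg Subtype.val h))
        intro a ha
        have h5 : (⟨a, ha⟩ : ↥R₀) ∈ Subgroup.zpowers (⟨(z : R), hzR0⟩ : ↥R₀) := by
          rw [hgen]; exact Subgroup.mem_top _
        obtain ⟨i, hi⟩ := Subgroup.mem_zpowers_iff.mp h5
        have hi' : a = (z : R) ^ i := by
          have := congrArg Subtype.val hi
          simpa using this.symm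
        rw [hi']
        exact Subgroup.zpow_mem _ hzc i
      have htop : R₀ ⊔ R₁ = ⊤ := by
        rw [hsup, eq_top_iff]
        intro x _
        rw [Subgroup.mem_centralizer_iff]
        intro h hh
        exact (Subgroup.mem_center_iff.mp (hR0c hh) x).symm
      apply hr3
      intro B _ hBp
      exact Cfsg.Agent.Lib.helper25.S1455Q1.narrow_count p R₀ R₁ B h0 h1 hc
        (by rw [htop]; exact le_top) hBp
    · exact hk
  obtain ⟨hET, -, -, hTchar, hTidx⟩ := Cfsg.Agent.S1453.result p hp hR hr3 E hE hE2 hEmax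
  refine ⟨(e0 : R), _, hTchar, hTidx, ?_⟩
  intro B hBT hBe hBp
  have hBE : B ≤ E := by
    intro b hb
    refine ⟨?_, hBp b hb⟩
    rw [hsup, Subgroup.mem_centralizer_iff]
    intro h hh
    obtain ⟨i, rfl⟩ := hpow0 h hh
    exact ((Commute.zpow_right (show Commute b (e0 : R) from hBe b hb) i).eq).symm
  have hlt : Nat.card ↥(E ⊓ Subgroup.centralizer
      ((Subgroup.closure {x : R | x ∈ Subgroup.upperCentralSeries R 2 ∧ x ^ p = 1} : Subgroup R) : Set R) :
        Subgroup R) ≤ p := by
    have hdvd : Nat.card ↥(E ⊓ Subgroup.centralizer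
        ((Subgroup.closure {x : R | x ∈ Subgroup.upperCentralSeries R 2 ∧ x ^ p = 1} : Subgroup R) : Set R) :
          Subgroup R) ∣ p ^ 2 := by
      rw [← hE2]; exact Subgroup.card_dvd_of_le inf_le_left
    obtain ⟨j, hj, hj'⟩ := (Nat.dvd_prime_pow hpp).mp hdvd
    have hj2 : j ≠ 2 := by
      rintro rfl
      apply hET
      have := Subgroup.eq_of_le_of_card_ge (inf_le_left : E ⊓ Subgroup.centralizer
        ((Subgroup.closure {x : R | x ∈ Subgroup.upperCentralSeries R 2 ∧ x ^ p = 1} : Subgroup R) : Set R) ≤ E)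
        (by rw [hj', hE2])
      rw [← this]; exact inf_le_right
    have hj1 : j ≤ 1 := by omega
    rw [hj']
    calc p ^ j ≤ p ^ 1 := Nat.pow_le_pow_right hpp.pos hj1
      _ = p := pow_one p
  exact (Subgroup.card_le_of_le (le_inf hBE hBT)).trans hlt

end Cfsg.Agent.Lib.helper5.S1454F2a
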