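import Mathlib

set_option autoImplicit false

namespace Cfsg.Agent.Lib.helper5.S1454X1c

open scoped commutatorElement

/-- In a `p`-group `P`, a nontrivial subgroup `D` is not equal to `⁅D, P⁆`. -/
theorem comm_ne_self_x {G : Type*} [Group G] [Finite G] (p : ℕ) [Fact p.Prime] (P D : Subgroup G)
    (hP : IsPGroup p P) (hDP : D ≤ P) (hD : D ≠ ⊥) : ⁅D, P⁆ ≠ D := by
  intro h
  have hnil : Group.IsNilpotent ↥P := hP.isNilpotent
  obtain ⟨n, hn⟩ := (Subgroup.isNilpotent_iff_lowerCentralSeries P).mp hnil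
  have key : ∀ m : ℕ, D ≤ P.lowerCentralSeries m := by
    intro m
    induction m with
    | zero => exact hDP
    | succ m ih =>
      rw [Subgroup.lowerCentralSeries_succ]
      calc D = ⁅D, P⁆ := h.symm
        _ ≤ ⁅P.lowerCentralSeries m, P⁆ := Subgroup.commutator_mono ih le_rfl
  apply hD
  rw [eq_bot_iff, ← hn]
  exact key n

/-- An element normalizing `A` and `B` normalizes `⁅A, B⁆`. -/
theorem norm_comm {G : Type*} [Group G] (A B : Subgroup G) (g : G)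
    (hA : g ∈ Subgroup.normalizer (A : Set G)) (hB : g ∈ Subgroup.normalizer (B : Set G)) :
    g ∈ Subgroup.normalizer ((⁅A, B⁆ : Subgroup G) : Set G) := by
  have key : ∀ g : G, g ∈ Subgroup.normalizer (A : Set G) →
      g ∈ Subgroup.normalizer (B : Set G) → ∀ h ∈ ⁅A, B⁆, g * h * g⁻¹ ∈ ⁅A, B⁆ := by
    intro g hA hB
    have hle : ⁅A, B⁆ ≤ (⁅A, B⁆ : Subgroup G).comap (MulAut.conj g).toMonoidHom := by
      rw [Subgroup.commutator_le]
      intro a ha b hb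
      rw [Subgroup.mem_comap]
      have h1 : (MulAut.conj g).toMonoidHom ⁅a, b⁆ = ⁅g * a * g⁻¹, g * b * g⁻¹⁆ := by
        simp only [MulEquiv.toMonoidHom_eq_coe, MonoidHom.coe_coe, MulAut.conj_apply,
          commutatorElement_def]
        group
      rw [h1]
      exact Subgroup.commutator_mem_commutator ((Subgroup.mem_normalizer_iff.mp hA a).mp ha)
        ((Subgroup.mem_normalizer_iff.mp hB b).mp hb)
    intro h hh
    have h2 := hle hh
    rw [Subgroup.mem_comap] at h2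
    simpa using h2
  rw [Subgroup.mem_normalizer_iff]
  intro h
  constructor
  · exact key g hA hB h
  · intro hh
    have h2 := key g⁻¹ (inv_mem hA) (inv_mem hB) _ hh
    have h3 : g⁻¹ * (g * h * g⁻¹) * g⁻¹⁻¹ = h := by group
    rwa [h3] at h2

/-- `⁅D, R⁆ ≤ D` when `R` normalizes `D`. -/
theorem comm_le_of_norm {G : Type*} [Group G] (D R : Subgroup G)
    (h : R ≤ Subgroup.normalizer (D : Set G)) : ⁅D, R⁆ ≤ D := by
  rw [Subgroup.commutator_le]
  intro t ht r hr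
  have h1 : r * t⁻¹ * r⁻¹ ∈ D := (Subgroup.mem_normalizer_iff.mp (h hr) t⁻¹).mp (inv_mem ht)
  have h2 : ⁅t, r⁆ = t * (r * t⁻¹ * r⁻¹) := by
    rw [commutatorElement_def]; group
  rw [h2]
  exact mul_mem ht h1

theorem chain_or_central {G : Type*} [Group G] [Finite G] (p : ℕ) [Fact p.Prime]
    (R T : Subgroup G) (hR : IsPGroup p R) (hTR : T ≤ R)
    (hRT : R ≤ Subgroup.normalizer (T : Set G)) (hT3 : Nat.card T = p ^ 3) :
    (∀ r ∈ R, ∀ t ∈ T, r * t * r⁻¹ * t⁻¹ ∈ T ⊓ Subgroup.centralizer (T : Set G)) ∨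
    ∃ L M : Subgroup G, M ≤ L ∧ L ≤ T ∧ Nat.card M = p ∧ Nat.card L = p ^ 2 ∧
      R ≤ Subgroup.normalizer (L : Set G) ∧ R ≤ Subgroup.normalizer (M : Set G) ∧
      ∀ g ∈ Subgroup.normalizer (R : Set G), g ∈ Subgroup.normalizer (T : Set G) →
        g ∈ Subgroup.normalizer (L : Set G) ∧ g ∈ Subgroup.normalizer (M : Set G) := by
  have hp : p.Prime := Fact.out
  have hRR : R ≤ Subgroup.normalizer (R : Set G) := Subgroup.le_normalizer
  have hLT : ⁅T, R⁆ ≤ T := comm_le_of_norm T R hRT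
  have hRL : R ≤ Subgroup.normalizer ((⁅T, R⁆ : Subgroup G) : Set G) :=
    fun r hr => norm_comm T R r (hRT hr) (hRR hr)
  have hML : ⁅⁅T, R⁆, R⁆ ≤ ⁅T, R⁆ := comm_le_of_norm _ R hRL
  have hRM : R ≤ Subgroup.normalizer ((⁅⁅T, R⁆, R⁆ : Subgroup G) : Set G) :=
    fun r hr => norm_comm _ R r (hRL hr) (hRR hr)
  have hTbot : T ≠ ⊥ := by
    intro h
    rw [h, Subgroup.card_bot] at hT3
    have h8 : 2 ^ 3 ≤ p ^ 3 := Nat.pow_le_pow_left hp.two_le 3
    omega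
  have hLne : ⁅T, R⁆ ≠ T := comm_ne_self_x p R T hR hTR hTbot
  have hLR : ⁅T, R⁆ ≤ R := hLT.trans hTR
  by_cases hM : ⁅⁅T, R⁆, R⁆ = ⊥
  · left
    intro r hr t ht
    have hx : r * t * r⁻¹ * t⁻¹ ∈ ⁅T, R⁆ := by
      have h0 : ⁅r, t⁆ ∈ ⁅R, T⁆ := Subgroup.commutator_mem_commutator hr ht
      rw [Subgroup.commutator_comm] at h0
      rw [commutatorElement_def] at h0
      exact h0
    refine Subgroup.mem_inf.mpr ⟨hLT hx, ?_⟩
    rw [Subgroup.mem_centralizer_iff]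
    intro s hs
    have h1 : ⁅r * t * r⁻¹ * t⁻¹, s⁆ ∈ ⁅⁅T, R⁆, R⁆ :=
      Subgroup.commutator_mem_commutator hx (hTR hs)
    rw [hM, Subgroup.mem_bot, commutatorElement_eq_one_iff_mul_comm] at h1
    exact h1.symm
  · right
    have hLbot : ⁅T, R⁆ ≠ ⊥ := by
      intro h
      apply hM
      rw [eq_bot_iff]
      calc ⁅⁅T, R⁆, R⁆ ≤ ⁅T, R⁆ := hML
        _ = ⊥ := h
    have hMne : ⁅⁅T, R⁆, R⁆ ≠ ⁅T, R⁆ := comm_ne_self_x p R _ hR hLR hLbot
    have hdL : Nat.card ↥(⁅T, R⁆) ∣ p ^ 3 := hT3 ▸ Subgroup.card_dvd_of_le hLT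
    obtain ⟨b, hb3, hb⟩ := (Nat.dvd_prime_pow hp).mp hdL
    have hdM : Nat.card ↥(⁅⁅T, R⁆, R⁆) ∣ p ^ b := hb ▸ Subgroup.card_dvd_of_le hML
    obtain ⟨a, hab, ha⟩ := (Nat.dvd_prime_pow hp).mp hdM
    have hb3' : b ≠ 3 := by
      intro h
      apply hLne
      apply Subgroup.eq_of_le_of_card_ge hLT
      rw [hT3, hb, h]
    have hab' : a ≠ b := by
      intro h
      apply hMne
      apply Subgroup.eq_of_le_of_card_ge hML
      rw [ha, hb, h]
    have ha0 : a ≠ 0 := by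
      intro h
      apply hM
      rw [h, pow_zero] at ha
      exact Subgroup.card_eq_one.mp ha
    have ha1 : a = 1 := by omega
    have hb2 : b = 2 := by omega
    refine ⟨⁅T, R⁆, ⁅⁅T, R⁆, R⁆, hML, hLT, ?_, ?_, hRL, hRM, ?_⟩
    · rw [ha, ha1, pow_one]
    · rw [hb, hb2]
    · intro g hgR hgT
      exact ⟨norm_comm T R g hgT hgR, norm_comm _ R g (norm_comm T R g hgT hgR) hgR⟩

end Cfsg.Agent.Lib.helper5.S1454X1c
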