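import Mathlib

set_option autoImplicit false
open scoped commutatorElement

namespace Cfsg.Agent.Lib.helper5.S1456M3

/-- `⁅W, F⁆ < W` for a nontrivial subgroup `W` of a nilpotent `F` normalizing it
(adapted copy of helper14's `commutator_lt_of_nilpotent'`, kept here so that this file imports Mathlib only). -/
theorem m3_comm_lt {S : Type*} [Group S] (W F : Subgroup S) (hWF : W ≤ F)
    (hFW : F ≤ Subgroup.normalizer (W : Set S)) (hW1 : W ≠ ⊥) [hnil : Group.IsNilpotent ↥F] :
    ⁅W, F⁆ < W := by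
  have hle : ⁅W, F⁆ ≤ W := by
    rw [Subgroup.commutator_le]
    intro w hw x hx
    rw [commutatorElement_def]
    have h1 : x * w⁻¹ * x⁻¹ ∈ W := (Subgroup.mem_normalizer_iff.mp (hFW hx) _).mp (W.inv_mem hw)
    have e : w * x * w⁻¹ * x⁻¹ = w * (x * w⁻¹ * x⁻¹) := by group
    rw [e]; exact W.mul_mem hw h1
  refine lt_of_le_of_ne hle (fun heq => hW1 ?_)
  obtain ⟨n, hn⟩ := (Subgroup.nilpotent_iff_lowerCentralSeries).mp hnil
  have hN : ∀ k, W.subgroupOf F ≤ (⊤ : Subgroup ↥F).lowerCentralSeries k := by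
    intro k
    induction k with
    | zero => simp
    | succ k ih =>
      have e : W.subgroupOf F = ⁅W.subgroupOf F, (⊤ : Subgroup ↥F)⁆ := by
        apply Subgroup.map_injective F.subtype_injective
        rw [Subgroup.map_commutator, Subgroup.map_subgroupOf_eq_of_le hWF, ← MonoidHom.range_eq_map,
          Subgroup.range_subtype]
        exact heq.symm
      rw [e, Subgroup.lowerCentralSeries_succ]
      exact Subgroup.commutator_mono ih le_rfl
  have h1 := hN n
  rw [hn, le_bot_iff] at h1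
  rw [eq_bot_iff]
  intro w hw
  have h2 : (⟨w, hWF hw⟩ : ↥F) ∈ W.subgroupOf F := by rw [Subgroup.mem_subgroupOf]; exact hw
  rw [h1, Subgroup.mem_bot] at h2
  rw [Subgroup.mem_bot]
  exact congrArg Subtype.val h2

/-- A cyclic normal subgroup is centralized by the commutator subgroup. -/
theorem m3_cyclic_normal {Γ : Type*} [Group Γ] (N : Subgroup Γ) [N.Normal] [IsCyclic ↥N] :
    ∀ x ∈ commutator Γ, ∀ n ∈ N, x * n = n * x := by
  have hcomm : ∀ a b : Γ, (MulAut.conjNormal a : MulAut ↥N) * MulAut.conjNormal b =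
      MulAut.conjNormal b * MulAut.conjNormal a := by
    intro a b
    obtain ⟨i, hi⟩ := MonoidHom.map_cyclic ((MulAut.conjNormal a : MulAut ↥N).toMonoidHom)
    obtain ⟨j, hj⟩ := MonoidHom.map_cyclic ((MulAut.conjNormal b : MulAut ↥N).toMonoidHom)
    have hi' : ∀ n : ↥N, (MulAut.conjNormal a : MulAut ↥N) n = n ^ i := fun n => hi n
    have hj' : ∀ n : ↥N, (MulAut.conjNormal b : MulAut ↥N) n = n ^ j := fun n => hj n
    apply MulEquiv.ext
    intro n
    rw [MulAut.mul_apply, MulAut.mul_apply, hj', hi', hi', hj', ← zpow_mul, ← zpow_mul, mul_comm]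
  have hker : commutator Γ ≤ (MulAut.conjNormal (H := N)).ker := by
    rw [commutator_def, Subgroup.commutator_le]
    intro a _ b _
    rw [MonoidHom.mem_ker, map_commutatorElement, commutatorElement_eq_one_iff_commute]
    exact hcomm a b
  intro x hx n hn
  have h1 := hker hx
  rw [MonoidHom.mem_ker] at h1
  have h2 : (MulAut.conjNormal x : MulAut ↥N) ⟨n, hn⟩ = ⟨n, hn⟩ := by rw [h1]; rfl
  have h3 := congrArg Subtype.val h2
  rw [MulAut.conjNormal_apply] at h3
  calc x * n = x * n * x⁻¹ * x := by group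
    _ = n * x := by rw [h3]

/-- Counting commutators with `e`. -/
theorem m3_count {G : Type*} [Group G] [Finite G] (P D : Subgroup G) [D.Normal] (e : G) (he : e ∈ P) :
    Nat.card ↥D ≤ Nat.card ↥(⁅D, P⁆ : Subgroup G) *
      Nat.card ↥(D ⊓ Subgroup.centralizer ({e} : Set G)) := by
  classical
  have h1 := Subgroup.card_eq_card_quotient_mul_card_subgroup
    ((D ⊓ Subgroup.centralizer ({e} : Set G)).subgroupOf D)
  have h2 : Nat.card ↥((D ⊓ Subgroup.centralizer ({e} : Set G)).subgroupOf D) =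
      Nat.card ↥(D ⊓ Subgroup.centralizer ({e} : Set G)) :=
    Nat.card_congr (Subgroup.subgroupOfEquivOfLe inf_le_left).toEquiv
  let φ : (↥D ⧸ (D ⊓ Subgroup.centralizer ({e} : Set G)).subgroupOf D) → ↥(⁅D, P⁆ : Subgroup G) :=
    fun q => Quotient.liftOn' q
      (fun d => (⟨⁅(d : G), e⁆, Subgroup.commutator_mem_commutator d.2 he⟩ : ↥(⁅D, P⁆ : Subgroup G)))
      (by
        intro a b hab
        rw [QuotientGroup.leftRel_apply] at hab
        have h3 : ((a⁻¹ * b : ↥D) : G) ∈ Subgroup.centralizer ({e} : Set G) :=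
          (Subgroup.mem_subgroupOf.mp hab).2
        rw [Subgroup.mem_centralizer_iff] at h3
        have hc : e * ((a : G)⁻¹ * (b : G)) = (a : G)⁻¹ * (b : G) * e := by
          simpa using h3 e (Set.mem_singleton e)
        apply Subtype.ext
        show ⁅(a : G), e⁆ = ⁅(b : G), e⁆
        rw [commutatorElement_def, commutatorElement_def]
        have hb : (b : G) * e * (b : G)⁻¹ = (a : G) * e * (a : G)⁻¹ := by
          calc (b : G) * e * (b : G)⁻¹
              = (a : G) * ((a : G)⁻¹ * (b : G) * e) * ((a : G)⁻¹ * (b : G))⁻¹ * (a : G)⁻¹ := by group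
            _ = (a : G) * (e * ((a : G)⁻¹ * (b : G))) * ((a : G)⁻¹ * (b : G))⁻¹ * (a : G)⁻¹ := by
                rw [hc]
            _ = (a : G) * e * (a : G)⁻¹ := by group
        rw [hb])
  have hφ : Function.Injective φ := by
    intro q1 q2
    induction q1, q2 using Quotient.inductionOn₂' with
    | _ a b =>
      intro h
      apply Quotient.sound'
      rw [QuotientGroup.leftRel_apply, Subgroup.mem_subgroupOf]
      have h4 : ⁅(a : G), e⁆ = ⁅(b : G), e⁆ := congrArg Subtype.val h
      rw [commutatorElement_def, commutatorElement_def] at h4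
      have h5 : (a : G) * e * (a : G)⁻¹ = (b : G) * e * (b : G)⁻¹ := mul_right_cancel h4
      refine ⟨(a⁻¹ * b).2, ?_⟩
      show ((a⁻¹ * b : ↥D) : G) ∈ Subgroup.centralizer ({e} : Set G)
      rw [Subgroup.mem_centralizer_iff]
      intro x hx
      rw [Set.mem_singleton_iff] at hx
      subst hx
      show x * ((a : G)⁻¹ * (b : G)) = (a : G)⁻¹ * (b : G) * x
      calc x * ((a : G)⁻¹ * (b : G)) = (a : G)⁻¹ * ((a : G) * x * (a : G)⁻¹) * (b : G) := by group
        _ = (a : G)⁻¹ * ((b : G) * x * (b : G)⁻¹) * (b : G) := by rw [h5]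
        _ = (a : G)⁻¹ * (b : G) * x := by group
  have hle := Nat.card_le_card_of_injective φ hφ
  rw [h1, h2]
  exact Nat.mul_le_mul_right _ hle

/-- The coprime step. -/
theorem m3_coprime_step {G : Type*} [Group G] (p : ℕ) (g d c : G) (hgd : g * d * g⁻¹ = c * d)
    (hgc : g * c = c * g) (hc : ∃ j : ℕ, c ^ p ^ j = 1) (hg : (orderOf g).Coprime p) : c = 1 := by
  have key : ∀ k : ℕ, g ^ k * d * (g ^ k)⁻¹ = c ^ k * d := by
    intro k
    induction k with
    | zero => simp
    | succ k ih =>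
      have hck : g * c ^ k = c ^ k * g := (Commute.pow_right (show Commute g c from hgc) k).eq
      calc g ^ (k + 1) * d * (g ^ (k + 1))⁻¹ = g * (g ^ k * d * (g ^ k)⁻¹) * g⁻¹ := by
            rw [pow_succ']; group
        _ = g * (c ^ k * d) * g⁻¹ := by rw [ih]
        _ = (g * c ^ k) * g⁻¹ * (g * d * g⁻¹) := by group
        _ = (c ^ k * g) * g⁻¹ * (c * d) := by rw [hck, hgd]
        _ = c ^ (k + 1) * d := by rw [pow_succ]; group
  have h1 := key (orderOf g)
  rw [pow_orderOf_eq_one] at h1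
  have h2 : c ^ orderOf g = 1 := by
    have h : c ^ orderOf g * d = 1 * d := by rw [one_mul]; simpa using h1.symm
    exact mul_right_cancel h
  obtain ⟨j, hj⟩ := hc
  have h3 : orderOf c ∣ orderOf g := orderOf_dvd_of_pow_eq_one h2
  have h4 : orderOf c ∣ p ^ j := orderOf_dvd_of_pow_eq_one hj
  have h5 : orderOf c = 1 :=
    Nat.Coprime.eq_one_of_dvd (Nat.Coprime.coprime_dvd_left h3 (Nat.Coprime.pow_right j hg)) h4
  exact orderOf_eq_one_iff.mp h5

theorem m3_aux {G : Type*} [Group G] [Finite G] (p : ℕ) [Fact p.Prime] (P : Subgroup G) [P.Normal]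
    (hP : IsPGroup p P) (e : G) (he : e ∈ P) :
    ∀ n : ℕ, ∀ D : Subgroup G, D.Normal → D ≤ P → Nat.card ↥D ≤ n →
      Nat.card ↥(D ⊓ Subgroup.centralizer ({e} : Set G)) ≤ p →
      ∀ g ∈ commutator G, (orderOf g).Coprime p → g ∈ Subgroup.centralizer (D : Set G) := by
  intro n
  induction n with
  | zero =>
    intro D _ _ hcard
    have := Nat.card_pos (α := ↥D)
    omega
  | succ n ih =>
    intro D hDn hDP hcard hfix g hg hgp
    haveI := hDn
    by_cases hD : D = ⊥
    · subst hD
      rw [Subgroup.mem_centralizer_iff]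
      intro h hh
      have h1 : h = 1 := Subgroup.mem_bot.mp hh
      rw [h1]; simp
    · haveI : Group.IsNilpotent ↥P := hP.isNilpotent
      have hnorm : P ≤ Subgroup.normalizer (D : Set G) := by
        intro x _
        rw [Subgroup.mem_normalizer_iff]
        intro h
        refine ⟨fun hh => hDn.conj_mem h hh x, fun hh => ?_⟩
        have h1 := hDn.conj_mem _ hh x⁻¹
        simpa [mul_assoc] using h1
      have hlt : ⁅D, P⁆ < D := m3_comm_lt D P hDP hnorm hD
      have hD1n : (⁅D, P⁆ : Subgroup G).Normal := Subgroup.commutator_normal D P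
      have := hD1n
      have hD1P : (⁅D, P⁆ : Subgroup G) ≤ P := hlt.le.trans hDP
      have hc1 : Nat.card ↥(⁅D, P⁆ : Subgroup G) < Nat.card ↥D :=
        lt_of_not_ge fun h => hlt.ne (Subgroup.eq_of_le_of_card_ge hlt.le h)
      have hfix1 : Nat.card ↥((⁅D, P⁆ : Subgroup G) ⊓ Subgroup.centralizer ({e} : Set G)) ≤ p :=
        (Subgroup.card_le_of_le (inf_le_inf_right _ hlt.le)).trans hfix
      have hg1 : g ∈ Subgroup.centralizer ((⁅D, P⁆ : Subgroup G) : Set G) :=
        ih _ hD1n hD1P (by omega) hfix1 g hg hgp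
      have hcount := m3_count P D e he
      have hle : Nat.card ↥D ≤ Nat.card ↥(⁅D, P⁆ : Subgroup G) * p :=
        hcount.trans (Nat.mul_le_mul_left _ hfix)
      have hcardimg : Nat.card ↥(D.map (QuotientGroup.mk' (⁅D, P⁆ : Subgroup G))) =
          (⁅D, P⁆ : Subgroup G).relIndex D := by
        rw [← Subgroup.relIndex_ker (K := D) (QuotientGroup.mk' (⁅D, P⁆ : Subgroup G)), QuotientGroup.ker_mk']
      have hrel : (⁅D, P⁆ : Subgroup G).relIndex D * Nat.card ↥(⁅D, P⁆ : Subgroup G) = Nat.card ↥D := by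
        have h1 := Subgroup.card_eq_card_quotient_mul_card_subgroup ((⁅D, P⁆ : Subgroup G).subgroupOf D)
        have h2 : Nat.card ↥((⁅D, P⁆ : Subgroup G).subgroupOf D) = Nat.card ↥(⁅D, P⁆ : Subgroup G) :=
          Nat.card_congr (Subgroup.subgroupOfEquivOfLe hlt.le).toEquiv
        rw [h2] at h1
        exact h1.symm
      have hp : p.Prime := Fact.out
      have hprime : (⁅D, P⁆ : Subgroup G).relIndex D = p := by
        have hpos : 0 < Nat.card ↥(⁅D, P⁆ : Subgroup G) := Nat.card_pos
        have h1 : (⁅D, P⁆ : Subgroup G).relIndex D ≤ p := by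
          by_contra hcon
          push_neg at hcon
          have h6 : Nat.card ↥(⁅D, P⁆ : Subgroup G) * p <
              (⁅D, P⁆ : Subgroup G).relIndex D * Nat.card ↥(⁅D, P⁆ : Subgroup G) := by
            rw [mul_comm]
            exact Nat.mul_lt_mul_of_pos_right hcon hpos
          omega
        have h2 : (⁅D, P⁆ : Subgroup G).relIndex D ≠ 1 := fun h =>
          absurd (Subgroup.relIndex_eq_one.mp h) (not_le_of_gt hlt)
        have h3 : (⁅D, P⁆ : Subgroup G).relIndex D ∣ Nat.card ↥D := Subgroup.relIndex_dvd_card _ D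
        obtain ⟨k, hk⟩ := (hP.to_le hDP).exists_card_eq
        rw [hk] at h3
        obtain ⟨j, _, hj'⟩ := (Nat.dvd_prime_pow hp).mp h3
        rw [hj'] at h1 h2 ⊢
        have hj1 : j ≤ 1 := by
          by_contra hcon
          push_neg at hcon
          have h7 : p ^ 2 ≤ p ^ j := Nat.pow_le_pow_right hp.pos hcon
          have h8 : p < p ^ 2 := by
            have := hp.one_lt
            nlinarith
          omega
        have hj0 : j ≠ 0 := fun h => h2 (by rw [h, pow_zero])
        have hj2 : j = 1 := by omega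
        rw [hj2, pow_one]
      haveI hcyc : IsCyclic ↥(D.map (QuotientGroup.mk' (⁅D, P⁆ : Subgroup G))) :=
        isCyclic_of_prime_card (p := p) (by rw [hcardimg, hprime])
      haveI hnormimg : (D.map (QuotientGroup.mk' (⁅D, P⁆ : Subgroup G))).Normal :=
        Subgroup.Normal.map hDn _ (QuotientGroup.mk'_surjective _)
      have hgq : QuotientGroup.mk' (⁅D, P⁆ : Subgroup G) g ∈ commutator (G ⧸ (⁅D, P⁆ : Subgroup G)) := by
        have h1 : QuotientGroup.mk' (⁅D, P⁆ : Subgroup G) g ∈
            (commutator G).map (QuotientGroup.mk' (⁅D, P⁆ : Subgroup G)) := Subgroup.mem_map_of_mem _ hg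
        rw [commutator_def, Subgroup.map_commutator] at h1
        rw [commutator_def]
        exact Subgroup.commutator_mono le_top le_top h1
      rw [Subgroup.mem_centralizer_iff]
      intro d hd
      have hcomm := m3_cyclic_normal (D.map (QuotientGroup.mk' (⁅D, P⁆ : Subgroup G)))
        (QuotientGroup.mk' (⁅D, P⁆ : Subgroup G) g) hgq
        (QuotientGroup.mk' (⁅D, P⁆ : Subgroup G) d) (Subgroup.mem_map_of_mem _ hd)
      have hcD1 : g * d * g⁻¹ * d⁻¹ ∈ (⁅D, P⁆ : Subgroup G) := by
        have h1 : QuotientGroup.mk' (⁅D, P⁆ : Subgroup G) (g * d * g⁻¹ * d⁻¹) = 1 := by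
          rw [map_mul, map_mul, map_mul, map_inv, map_inv, hcomm]
          group
        exact (QuotientGroup.eq_one_iff _).mp h1
      have hgd : g * d * g⁻¹ = (g * d * g⁻¹ * d⁻¹) * d := by group
      have hgc : g * (g * d * g⁻¹ * d⁻¹) = (g * d * g⁻¹ * d⁻¹) * g := by
        rw [Subgroup.mem_centralizer_iff] at hg1
        exact (hg1 _ hcD1).symm
      have hcp : ∃ j : ℕ, (g * d * g⁻¹ * d⁻¹) ^ p ^ j = 1 := by
        obtain ⟨j, hj⟩ := hP ⟨g * d * g⁻¹ * d⁻¹, hD1P hcD1⟩
        exact ⟨j, by simpa using congrArg Subtype.val hj⟩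
      have hc1 : g * d * g⁻¹ * d⁻¹ = 1 := m3_coprime_step p g d _ hgd hgc hcp hgp
      calc d * g = (g * d * g⁻¹ * d⁻¹) * d * g := by rw [hc1, one_mul]
        _ = g * d := by group

/-- (M3) of helper8's split of S1456. -/
theorem cent_of_small_fix {G : Type*} [Group G] [Finite G] (p : ℕ) [Fact p.Prime] (P D : Subgroup G) [P.Normal] [D.Normal] (hP : IsPGroup p P) (hDP : D ≤ P) (e : G) (he : e ∈ P) (hfix : Nat.card ↥(D ⊓ Subgroup.centralizer ({e} : Set G)) ≤ p) : ∀ g ∈ commutator G, (orderOf g).Coprime p → g ∈ Subgroup.centralizer (D : Set G) :=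
  m3_aux p P hP e he (Nat.card ↥D) D inferInstance hDP le_rfl hfix

end Cfsg.Agent.Lib.helper5.S1456M3
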