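import Mathlib
import Cfsg.Agent.Lib.helper5.S1456M3

set_option autoImplicit false
open scoped commutatorElement

namespace Cfsg.Agent.Lib.helper5.S1455M3

open Cfsg.Agent.Lib.helper5.S1456M3

/-- For a normal subgroup `N` of prime order `p`, every `(p-1)`-th power centralizes `N`. -/
theorem m3p_prime_normal {Γ : Type*} [Group Γ] (p : ℕ) [Fact p.Prime] (N : Subgroup Γ) [N.Normal]
    (hN : Nat.card ↥N = p) : ∀ y : Γ, ∀ n ∈ N, y ^ (p - 1) * n = n * y ^ (p - 1) := by
  have hp : p.Prime := Fact.out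
  haveI : Finite ↥N := Nat.finite_of_card_ne_zero (by rw [hN]; exact hp.ne_zero)
  haveI : IsCyclic ↥N := isCyclic_of_prime_card hN
  have hcard : Nat.card (MulAut ↥N) = p - 1 := by
    rw [IsCyclic.card_mulAut, hN, Nat.totient_prime hp]
  intro y n hn
  have h1 : (MulAut.conjNormal (y ^ (p - 1)) : MulAut ↥N) = 1 := by
    rw [map_pow, ← hcard]
    exact pow_card_eq_one'
  have h2 : (MulAut.conjNormal (y ^ (p - 1)) : MulAut ↥N) ⟨n, hn⟩ = ⟨n, hn⟩ := by rw [h1]; rfl
  have h3 := congrArg Subtype.val h2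
  rw [MulAut.conjNormal_apply] at h3
  calc y ^ (p - 1) * n = y ^ (p - 1) * n * (y ^ (p - 1))⁻¹ * y ^ (p - 1) := by group
    _ = n * y ^ (p - 1) := by rw [h3]

theorem m3p_aux {G : Type*} [Group G] [Finite G] (p : ℕ) [Fact p.Prime] (P : Subgroup G) [P.Normal]
    (hP : IsPGroup p P) (e : G) (he : e ∈ P) :
    ∀ n : ℕ, ∀ D : Subgroup G, D.Normal → D ≤ P → Nat.card ↥D ≤ n →
      Nat.card ↥(D ⊓ Subgroup.centralizer ({e} : Set G)) ≤ p →
      ∀ g : G, (orderOf g).Coprime p → g ^ (p - 1) ∈ Subgroup.centralizer (D : Set G) := by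
  intro n
  induction n with
  | zero =>
    intro D _ _ hcard
    have := Nat.card_pos (α := ↥D)
    omega
  | succ n ih =>
    intro D hDn hDP hcard hfix g hgp
    haveI := hDn
    by_cases hD : D = ⊥
    · subst hD
      rw [Subgroup.mem_centralizer_iff]
      intro h hh
      have h1 : h = 1 := Subgroup.mem_bot.mp hh
      rw [h1]; simp
    · haveI : Group.IsNilpotent ↥P := hP.isNilpotent
      have hnorm : P ≤ Subgroup.normalizer (D : Set G) := by
        intro x _
        rw [Subgroup.mem_normalizer_iff]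
        intro h
        refine ⟨fun hh => hDn.conj_mem h hh x, fun hh => ?_⟩
        have h1 := hDn.conj_mem _ hh x⁻¹
        simpa [mul_assoc] using h1
      have hlt : ⁅D, P⁆ < D := m3_comm_lt D P hDP hnorm hD
      have hD1n : (⁅D, P⁆ : Subgroup G).Normal := Subgroup.commutator_normal D P
      have := hD1n
      have hD1P : (⁅D, P⁆ : Subgroup G) ≤ P := hlt.le.trans hDP
      have hc1 : Nat.card ↥(⁅D, P⁆ : Subgroup G) < Nat.card ↥D :=
        lt_of_not_ge fun h => hlt.ne (Subgroup.eq_of_le_of_card_ge hlt.le h)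
      have hfix1 : Nat.card ↥((⁅D, P⁆ : Subgroup G) ⊓ Subgroup.centralizer ({e} : Set G)) ≤ p :=
        (Subgroup.card_le_of_le (inf_le_inf_right _ hlt.le)).trans hfix
      have hg1 : g ^ (p - 1) ∈ Subgroup.centralizer ((⁅D, P⁆ : Subgroup G) : Set G) :=
        ih _ hD1n hD1P (by omega) hfix1 g hgp
      have hcount := m3_count P D e he
      have hle : Nat.card ↥D ≤ Nat.card ↥(⁅D, P⁆ : Subgroup G) * p :=
        hcount.trans (Nat.mul_le_mul_left _ hfix)
      have hcardimg : Nat.card ↥(D.map (QuotientGroup.mk' (⁅D, P⁆ : Subgroup G))) =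
          (⁅D, P⁆ : Subgroup G).relIndex D := by
        rw [← Subgroup.relIndex_ker (K := D) (QuotientGroup.mk' (⁅D, P⁆ : Subgroup G)), QuotientGroup.ker_mk']
      have hrel : (⁅D, P⁆ : Subgroup G).relIndex D * Nat.card ↥(⁅D, P⁆ : Subgroup G) = Nat.card ↥D := by
        have h1 := Subgroup.card_eq_card_quotient_mul_card_subgroup ((⁅D, P⁆ : Subgroup G).subgroupOf D)
        have h2 : Nat.card ↥((⁅D, P⁆ : Subgroup G).subgroupOf D) = Nat.card ↥(⁅D, P⁆ : Subgroup G) :=
          Nat.card_congr (Subgroup.subgroupOfEquivOfLe hlt.le).toEquiv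
        rw [h2] at h1
        exact h1.symm
      have hp : p.Prime := Fact.out
      have hprime : (⁅D, P⁆ : Subgroup G).relIndex D = p := by
        have hpos : 0 < Nat.card ↥(⁅D, P⁆ : Subgroup G) := Nat.card_pos
        have h1 : (⁅D, P⁆ : Subgroup G).relIndex D ≤ p := by
          by_contra hcon
          push_neg at hcon
          have h6 : Nat.card ↥(⁅D, P⁆ : Subgroup G) * p <
              (⁅D, P⁆ : Subgroup G).relIndex D * Nat.card ↥(⁅D, P⁆ : Subgroup G) := by
            rw [mul_comm]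
            exact Nat.mul_lt_mul_of_pos_right hcon hpos
          omega
        have h2 : (⁅D, P⁆ : Subgroup G).relIndex D ≠ 1 := fun h =>
          absurd (Subgroup.relIndex_eq_one.mp h) (not_le_of_gt hlt)
        have h3 : (⁅D, P⁆ : Subgroup G).relIndex D ∣ Nat.card ↥D := Subgroup.relIndex_dvd_card _ D
        obtain ⟨k, hk⟩ := (hP.to_le hDP).exists_card_eq
        rw [hk] at h3
        obtain ⟨j, _, hj'⟩ := (Nat.dvd_prime_pow hp).mp h3
        rw [hj'] at h1 h2 ⊢
        have hj1 : j ≤ 1 := by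
          by_contra hcon
          push_neg at hcon
          have h7 : p ^ 2 ≤ p ^ j := Nat.pow_le_pow_right hp.pos hcon
          have h8 : p < p ^ 2 := by
            have := hp.one_lt
            nlinarith
          omega
        have hj0 : j ≠ 0 := fun h => h2 (by rw [h, pow_zero])
        have hj2 : j = 1 := by omega
        rw [hj2, pow_one]
      haveI hnormimg : (D.map (QuotientGroup.mk' (⁅D, P⁆ : Subgroup G))).Normal :=
        Subgroup.Normal.map hDn _ (QuotientGroup.mk'_surjective _)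
      rw [Subgroup.mem_centralizer_iff]
      intro d hd
      have hcomm := m3p_prime_normal p (D.map (QuotientGroup.mk' (⁅D, P⁆ : Subgroup G)))
        (by rw [hcardimg, hprime])
        (QuotientGroup.mk' (⁅D, P⁆ : Subgroup G) g)
        (QuotientGroup.mk' (⁅D, P⁆ : Subgroup G) d) (Subgroup.mem_map_of_mem _ hd)
      have hcD1 : g ^ (p - 1) * d * (g ^ (p - 1))⁻¹ * d⁻¹ ∈ (⁅D, P⁆ : Subgroup G) := by
        have h1 : QuotientGroup.mk' (⁅D, P⁆ : Subgroup G) (g ^ (p - 1) * d * (g ^ (p - 1))⁻¹ * d⁻¹) = 1 := by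
          rw [map_mul, map_mul, map_mul, map_inv, map_inv, map_pow, hcomm]
          group
        exact (QuotientGroup.eq_one_iff _).mp h1
      have hxp : (orderOf (g ^ (p - 1))).Coprime p :=
        Nat.Coprime.coprime_dvd_left (orderOf_pow_dvd (p - 1)) hgp
      have hgd : g ^ (p - 1) * d * (g ^ (p - 1))⁻¹ =
          (g ^ (p - 1) * d * (g ^ (p - 1))⁻¹ * d⁻¹) * d := by group
      have hgc : g ^ (p - 1) * (g ^ (p - 1) * d * (g ^ (p - 1))⁻¹ * d⁻¹) =
          (g ^ (p - 1) * d * (g ^ (p - 1))⁻¹ * d⁻¹) * g ^ (p - 1) := by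
        rw [Subgroup.mem_centralizer_iff] at hg1
        exact (hg1 _ hcD1).symm
      have hcp : ∃ j : ℕ, (g ^ (p - 1) * d * (g ^ (p - 1))⁻¹ * d⁻¹) ^ p ^ j = 1 := by
        obtain ⟨j, hj⟩ := hP ⟨g ^ (p - 1) * d * (g ^ (p - 1))⁻¹ * d⁻¹, hD1P hcD1⟩
        exact ⟨j, by simpa using congrArg Subtype.val hj⟩
      have hc1 : g ^ (p - 1) * d * (g ^ (p - 1))⁻¹ * d⁻¹ = 1 :=
        m3_coprime_step p (g ^ (p - 1)) d _ hgd hgc hcp hxp
      calc d * g ^ (p - 1) = (g ^ (p - 1) * d * (g ^ (p - 1))⁻¹ * d⁻¹) * d * g ^ (p - 1) := by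
            rw [hc1, one_mul]
        _ = g ^ (p - 1) * d := by group

/-- (M3') first form: `(p-1)`-th powers of `p'`-elements centralize `D`. -/
theorem cent_of_small_fix_pow {G : Type*} [Group G] [Finite G] (p : ℕ) [Fact p.Prime] (P D : Subgroup G) [P.Normal] [D.Normal] (hP : IsPGroup p P) (hDP : D ≤ P) (e : G) (he : e ∈ P) (hfix : Nat.card ↥(D ⊓ Subgroup.centralizer ({e} : Set G)) ≤ p) : ∀ g : G, (orderOf g).Coprime p → g ^ (p - 1) ∈ Subgroup.centralizer (D : Set G) :=
  m3p_aux p P hP e he (Nat.card ↥D) D inferInstance hDP le_rfl hfix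

/-- (M3') second form: elements of order coprime to `p * (p - 1)` centralize `D`. -/
theorem cent_of_small_fix_coprime {G : Type*} [Group G] [Finite G] (p : ℕ) [Fact p.Prime] (P D : Subgroup G) [P.Normal] [D.Normal] (hP : IsPGroup p P) (hDP : D ≤ P) (e : G) (he : e ∈ P) (hfix : Nat.card ↥(D ⊓ Subgroup.centralizer ({e} : Set G)) ≤ p) : ∀ g : G, (orderOf g).Coprime (p * (p - 1)) → g ∈ Subgroup.centralizer (D : Set G) := by
  intro g hg
  have h1 : (orderOf g).Coprime p := Nat.Coprime.coprime_dvd_right (Dvd.intro _ rfl) hg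
  have h2 : (p - 1).Coprime (orderOf g) :=
    (Nat.Coprime.coprime_dvd_right (Dvd.intro_left _ rfl) hg).symm
  have h3 := cent_of_small_fix_pow p P D hP hDP e he hfix g h1
  obtain ⟨m, hm⟩ := exists_pow_eq_self_of_coprime h2
  rw [← hm]
  exact Subgroup.pow_mem _ h3 m

end Cfsg.Agent.Lib.helper5.S1455M3
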