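import Mathlib

set_option autoImplicit false

namespace Cfsg.Agent.Lib.helper5

open scoped Matrix

section TwoTrans

variable {G Ω : Type*} [Group G] [Fintype Ω] [MulAction G Ω]

/-- twisted equivariance of an integer matrix indexed by a `G`-set. -/
def ttEqv (τ : MulAut G) (B : Matrix Ω Ω ℤ) : Prop :=
  ∀ (g : G) (x y : Ω), B (τ g • x) (g • y) = B x y

theorem ttEqv_mul {τ₁ τ₂ : MulAut G} {B₁ B₂ : Matrix Ω Ω ℤ} (h₁ : ttEqv τ₁ B₁)
    (h₂ : ttEqv τ₂ B₂) : ttEqv (τ₁ * τ₂) (B₁ * B₂) := by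
  intro g x y
  rw [Matrix.mul_apply, Matrix.mul_apply]
  calc ∑ z, B₁ ((τ₁ * τ₂) g • x) z * B₂ z (g • y)
      = ∑ z, B₁ ((τ₁ * τ₂) g • x) (τ₂ g • z) * B₂ (τ₂ g • z) (g • y) :=
        (Equiv.sum_comp (MulAction.toPerm (τ₂ g))
          (fun z => B₁ ((τ₁ * τ₂) g • x) z * B₂ z (g • y))).symm
    _ = ∑ z, B₁ x z * B₂ z y :=
        Finset.sum_congr rfl fun z _ => by rw [MulAut.mul_apply, h₁, h₂]

theorem ttEqv_transpose {τ : MulAut G} {B : Matrix Ω Ω ℤ} (h : ttEqv τ B) :
    ttEqv τ⁻¹ Bᵀ := by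
  intro g x y
  rw [Matrix.transpose_apply, Matrix.transpose_apply]
  have := h (τ⁻¹ g) y x
  rwa [MulAut.apply_inv_self] at this

theorem ttEqv_one [DecidableEq Ω] : ttEqv (1 : MulAut G) (1 : Matrix Ω Ω ℤ) := by
  intro g x y
  simp [Matrix.one_apply]

theorem ttEqv_pow [DecidableEq Ω] {τ : MulAut G} {B : Matrix Ω Ω ℤ} (h : ttEqv τ B) (j : ℕ) :
    ttEqv (τ ^ j) (B ^ j) := by
  induction j with
  | zero => simpa using (ttEqv_one (G := G) (Ω := Ω))
  | succ j ih => rw [pow_succ, pow_succ]; exact ttEqv_mul ih h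

/-- the all-ones matrix. -/
def ttJ : Matrix Ω Ω ℤ := Matrix.of fun _ _ => 1

theorem ttJ_apply (x y : Ω) : (ttJ : Matrix Ω Ω ℤ) x y = 1 := rfl

theorem ttJ_transpose : (ttJ : Matrix Ω Ω ℤ)ᵀ = ttJ := by
  ext x y; rfl

theorem ttJ_mul_self : (ttJ : Matrix Ω Ω ℤ) * ttJ = (Fintype.card Ω : ℤ) • ttJ := by
  ext x y
  simp [Matrix.mul_apply, ttJ_apply]

theorem ttEqv_form [DecidableEq Ω] (h2 : MulAction.IsMultiplyPretransitive G Ω 2)
    {B : Matrix Ω Ω ℤ} (h : ttEqv (1 : MulAut G) B) (x0 y0 : Ω) (hxy : x0 ≠ y0) :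
    B = (B x0 x0 - B x0 y0) • (1 : Matrix Ω Ω ℤ) + B x0 y0 • ttJ := by
  have h2' : ∀ (a b c d : Ω), a ≠ b → c ≠ d → ∃ g : G, g • a = c ∧ g • b = d :=
    fun a b c d h h' => (MulAction.is_two_pretransitive_iff (G := G)).mp h2 h h'
  haveI := h2
  haveI : MulAction.IsPretransitive G Ω := MulAction.isPretransitive_of_is_two_pretransitive
  ext x y
  by_cases hxy' : x = y
  · subst hxy'
    obtain ⟨g, rfl⟩ := MulAction.exists_smul_eq G x0 x
    have := h g x0 x0
    simp only [MulAut.one_apply] at this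
    simp only [Matrix.add_apply, Matrix.smul_apply, ttJ_apply, this, Matrix.one_apply_eq,
      smul_eq_mul]
    ring
  · obtain ⟨g, rfl, rfl⟩ := h2' _ _ _ _ hxy hxy'
    have := h g x0 y0
    simp only [MulAut.one_apply] at this
    simp only [Matrix.add_apply, Matrix.smul_apply, ttJ_apply, this, Matrix.one_apply_ne hxy',
      smul_eq_mul]
    ring

open Classical in
/-- the twisted incidence matrix. -/
noncomputable def ttA (α : MulAut G) (o ω : Ω) : Matrix Ω Ω ℤ :=
  fun x y => if ∃ b : G, b • o = y ∧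
    (α b)⁻¹ • x ∈ MulAction.orbit ((MulAction.stabilizer G o).map α.toMonoidHom) ω then 1 else 0

theorem ttA_eqv (α : MulAut G) (o ω : Ω) : ttEqv α (ttA α o ω) := by
  intro g x y
  unfold ttA
  have : (∃ b : G, b • o = g • y ∧ (α b)⁻¹ • α g • x ∈
        MulAction.orbit ((MulAction.stabilizer G o).map α.toMonoidHom) ω) ↔
      (∃ b : G, b • o = y ∧ (α b)⁻¹ • x ∈
        MulAction.orbit ((MulAction.stabilizer G o).map α.toMonoidHom) ω) := by
    constructor
    · rintro ⟨b, hb1, hb2⟩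
      refine ⟨g⁻¹ * b, ?_, ?_⟩
      · rw [mul_smul, hb1, inv_smul_smul]
      · simpa [mul_smul, mul_inv_rev] using hb2
    · rintro ⟨b, hb1, hb2⟩
      refine ⟨g * b, ?_, ?_⟩
      · rw [mul_smul, hb1]
      · simpa [mul_smul, mul_inv_rev] using hb2
  by_cases hc : (∃ b : G, b • o = y ∧ (α b)⁻¹ • x ∈
        MulAction.orbit ((MulAction.stabilizer G o).map α.toMonoidHom) ω)
  · rw [if_pos hc, if_pos (this.mpr hc)]
  · rw [if_neg hc, if_neg (mt this.mp hc)]

theorem ttA_idem (α : MulAut G) (o ω : Ω) (x y : Ω) :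
    ttA α o ω x y * ttA α o ω x y = ttA α o ω x y := by
  unfold ttA; split_ifs <;> simp

theorem ttA_nonneg (α : MulAut G) (o ω : Ω) (x y : Ω) : 0 ≤ ttA α o ω x y := by
  unfold ttA; split_ifs <;> simp

open Classical in
theorem ttA_base (α : MulAut G) (o ω : Ω) (x : Ω) :
    ttA α o ω x o = if x ∈ MulAction.orbit ((MulAction.stabilizer G o).map α.toMonoidHom) ω
      then 1 else 0 := by
  unfold ttA
  have : (∃ b : G, b • o = o ∧ (α b)⁻¹ • x ∈
        MulAction.orbit ((MulAction.stabilizer G o).map α.toMonoidHom) ω) ↔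
      x ∈ MulAction.orbit ((MulAction.stabilizer G o).map α.toMonoidHom) ω := by
    constructor
    · rintro ⟨b, hb1, κ, hκ⟩
      have hb : α b ∈ (MulAction.stabilizer G o).map α.toMonoidHom :=
        ⟨b, hb1, rfl⟩
      refine ⟨⟨α b, hb⟩ * κ, ?_⟩
      show (⟨α b, hb⟩ * κ) • ω = x
      rw [mul_smul]
      have hκ' : κ • ω = (α b)⁻¹ • x := hκ
      rw [hκ']
      exact smul_inv_smul (α b) x
    · intro h
      exact ⟨1, one_smul _ _, by simpa using h⟩
  by_cases hc : x ∈ MulAction.orbit ((MulAction.stabilizer G o).map α.toMonoidHom) ω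
  · rw [if_pos hc, if_pos (this.mpr hc)]
  · rw [if_neg hc, if_neg (mt this.mp hc)]

end TwoTrans

section TwoTrans2

variable {G Ω : Type*} [Group G] [Fintype Ω] [MulAction G Ω]

theorem ttA_col [MulAction.IsPretransitive G Ω] (α : MulAut G) (o ω : Ω) (y : Ω) :
    ∑ x, ttA α o ω x y =
      (Nat.card (MulAction.orbit ((MulAction.stabilizer G o).map α.toMonoidHom) ω) : ℤ) := by
  classical
  obtain ⟨g, rfl⟩ := MulAction.exists_smul_eq G o y
  have e : ∑ x, ttA α o ω x (g • o) = ∑ x, ttA α o ω x o := by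
    calc ∑ x, ttA α o ω x (g • o) = ∑ x, ttA α o ω (α g • x) (g • o) :=
          (Equiv.sum_comp (MulAction.toPerm (α g)) (fun x => ttA α o ω x (g • o))).symm
      _ = ∑ x, ttA α o ω x o := Finset.sum_congr rfl fun x _ => ttA_eqv α o ω g x o
  rw [e]
  simp only [ttA_base]
  rw [Finset.sum_boole, Nat.card_eq_fintype_card, Fintype.card_subtype]

theorem ttA_row [MulAction.IsPretransitive G Ω] (α : MulAut G) (o ω : Ω) (x : Ω) :
    ∑ y, ttA α o ω x y =
      (Nat.card (MulAction.orbit ((MulAction.stabilizer G o).map α.toMonoidHom) ω) : ℤ) := by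
  classical
  have hinv : ∀ (g : G) (x : Ω), ∑ y, ttA α o ω (α g • x) y = ∑ y, ttA α o ω x y := by
    intro g x
    calc ∑ y, ttA α o ω (α g • x) y = ∑ y, ttA α o ω (α g • x) (g • y) :=
          (Equiv.sum_comp (MulAction.toPerm g) (fun y => ttA α o ω (α g • x) y)).symm
      _ = ∑ y, ttA α o ω x y := Finset.sum_congr rfl fun y _ => ttA_eqv α o ω g x y
  have hconst : ∀ x', ∑ y, ttA α o ω x' y = ∑ y, ttA α o ω x y := by
    intro x'
    obtain ⟨g, rfl⟩ := MulAction.exists_smul_eq G x x'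
    have := hinv (α⁻¹ g) x
    rwa [MulAut.apply_inv_self] at this
  have hsum : ∑ x', ∑ y, ttA α o ω x' y = ∑ y, ∑ x', ttA α o ω x' y := Finset.sum_comm
  simp only [hconst, ttA_col, Finset.sum_const, Finset.card_univ, nsmul_eq_mul] at hsum
  have hpos : (Fintype.card Ω : ℤ) ≠ 0 := by
    have : 0 < Fintype.card Ω := Fintype.card_pos_iff.mpr ⟨x⟩
    exact_mod_cast this.ne'
  exact mul_left_cancel₀ hpos hsum

theorem ttA_mul_J [MulAction.IsPretransitive G Ω] (α : MulAut G) (o ω : Ω) :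
    ttA α o ω * ttJ =
      (Nat.card (MulAction.orbit ((MulAction.stabilizer G o).map α.toMonoidHom) ω) : ℤ) • ttJ := by
  ext x y
  simp only [Matrix.mul_apply, ttJ_apply, mul_one, Matrix.smul_apply, smul_eq_mul]
  exact ttA_row α o ω x

theorem ttJ_mul_A [MulAction.IsPretransitive G Ω] (α : MulAut G) (o ω : Ω) :
    ttJ * ttA α o ω =
      (Nat.card (MulAction.orbit ((MulAction.stabilizer G o).map α.toMonoidHom) ω) : ℤ) • ttJ := by
  ext x y
  simp only [Matrix.mul_apply, ttJ_apply, one_mul, Matrix.smul_apply, smul_eq_mul, mul_one]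
  exact ttA_col α o ω y

end TwoTrans2


theorem tt_arith (n k m : ℕ) (c0 c1 a b : ℤ) (hkle : k ≤ n) (hn : 2 ≤ n) (hk1 : 1 ≤ k)
    (hkn : Nat.Coprime k n) (hm : Odd m)
    (h1 : c0 + c1 * n = k * k) (h2 : a + b * n = (k:ℤ)^m) (h3 : a * a = c0^m) (h4 : 0 ≤ c1)
    (h5 : c0 + c1 = k) : k = 1 ∨ k = n - 1 := by
  obtain ⟨j, rfl⟩ := hm
  have hkn' : k < n := by
    rcases Nat.lt_or_ge k n with h | h
    · exact h
    · have : k = n := le_antisymm hkle h
      subst this
      rw [Nat.coprime_self] at hkn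
      omega
  have hc0 : 0 ≤ c0 := by
    by_contra hneg
    push Not at hneg
    have : c0 ^ (2*j+1) < 0 := Odd.pow_neg ⟨j, rfl⟩ hneg
    nlinarith [mul_self_nonneg a]
  obtain ⟨s, hs0, hs⟩ : ∃ s : ℤ, 0 ≤ s ∧ c0 = s * s := by
    by_cases hz : c0 = 0
    · exact ⟨0, le_refl _, by simp [hz]⟩
    · have hd : (c0^j)^2 ∣ a^2 := by
        refine ⟨c0, ?_⟩
        rw [sq a, h3]; ring
      have hd' : c0^j ∣ a := (Int.pow_dvd_pow_iff (by norm_num)).mp hd
      obtain ⟨u, hu⟩ := hd'
      have hne : c0^j ≠ 0 := pow_ne_zero _ hz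
      have hcu : c0 = u * u := by
        have h3' : (c0^j * u) * (c0^j * u) = c0^(2*j+1) := by rw [← hu]; exact h3
        have h3'' : c0^j * c0^j * (u * u) = c0^j * c0^j * c0 := by
          rw [show c0^j * c0^j * (u * u) = (c0^j * u) * (c0^j * u) by ring, h3']; ring
        exact (mul_left_cancel₀ (mul_ne_zero hne hne) h3'').symm
      exact ⟨|u|, abs_nonneg u, by rw [abs_mul_abs_self]; exact hcu⟩
  subst hs
  have hsk : s ≤ k := by nlinarith
  have ha : a = s^(2*j+1) ∨ a = -s^(2*j+1) := by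
    apply mul_self_eq_mul_self_iff.mp
    rw [h3]; ring
  have e1 : (n:ℤ) ∣ (k:ℤ) * k - s * s := ⟨c1, by linarith⟩
  have e2 : (n:ℤ) ∣ ((k:ℤ) * k)^j - (s * s)^j := dvd_trans e1 (sub_dvd_pow_sub_pow _ _ j)
  have hcop : IsCoprime (n:ℤ) (((k:ℤ) * k)^j) := by
    have : IsCoprime (n:ℤ) (k:ℤ) := (Nat.isCoprime_iff_coprime.mpr hkn).symm
    exact IsCoprime.pow_right (IsCoprime.mul_right this this)
  rcases ha with ha | ha
  · -- ε = 1
    have e3 : (n:ℤ) ∣ ((k:ℤ) - s) * ((k:ℤ) * k)^j := by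
      have e4 : (n:ℤ) ∣ (k:ℤ)^(2*j+1) - s^(2*j+1) := ⟨b, by rw [← h2, ha]; ring⟩
      have : ((k:ℤ) - s) * ((k:ℤ) * k)^j
          = ((k:ℤ)^(2*j+1) - s^(2*j+1)) - s * (((k:ℤ) * k)^j - (s * s)^j) := by ring
      rw [this]
      exact dvd_sub e4 (Dvd.dvd.mul_left e2 s)
    have e5 : (n:ℤ) ∣ (k:ℤ) - s := hcop.dvd_of_dvd_mul_right e3
    obtain ⟨t, ht⟩ := e5
    have hkn2 : (k:ℤ) < n := by exact_mod_cast hkn'
    have ht0 : t = 0 := by
      have hnpos : (0:ℤ) < n := by exact_mod_cast (by omega : 0 < n)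
      have h1' : t < 1 := by
        by_contra hcon
        push Not at hcon
        nlinarith
      have h2' : -1 < t := by
        by_contra hcon
        push Not at hcon
        nlinarith
      omega
    rw [ht0, mul_zero] at ht
    have hks : (k:ℤ) = s := by linarith
    left
    have hk1' : (1:ℤ) ≤ k := by exact_mod_cast hk1
    have : (k:ℤ) ≤ 1 := by nlinarith
    have : (k:ℤ) = 1 := le_antisymm this hk1'
    exact_mod_cast this
  · -- ε = -1
    have e3 : (n:ℤ) ∣ ((k:ℤ) + s) * ((k:ℤ) * k)^j := by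
      have e4 : (n:ℤ) ∣ (k:ℤ)^(2*j+1) + s^(2*j+1) := ⟨b, by rw [← h2, ha]; ring⟩
      have : ((k:ℤ) + s) * ((k:ℤ) * k)^j
          = ((k:ℤ)^(2*j+1) + s^(2*j+1)) + s * (((k:ℤ) * k)^j - (s * s)^j) := by ring
      rw [this]
      exact dvd_add e4 (Dvd.dvd.mul_left e2 s)
    have e5 : (n:ℤ) ∣ (k:ℤ) + s := hcop.dvd_of_dvd_mul_right e3
    obtain ⟨t, ht⟩ := e5
    have hkn2 : (k:ℤ) < n := by exact_mod_cast hkn'
    have hk1' : (1:ℤ) ≤ k := by exact_mod_cast hk1
    have hnpos : (0:ℤ) < n := by exact_mod_cast (by omega : 0 < n)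
    have ht1 : t = 1 := by
      have h1' : t < 2 := by
        by_contra hcon
        push Not at hcon
        nlinarith
      have h2' : 0 < t := by
        by_contra hcon
        push Not at hcon
        nlinarith
      omega
    rw [ht1, mul_one] at ht
    -- c1 = k - s
    have hc1 : c1 = k - s := by
      have : c1 * (n:ℤ) = ((k:ℤ) - s) * n := by
        have : c1 * (n:ℤ) = (k:ℤ) * k - s * s := by linarith
        rw [this, ← ht]; ring
      exact mul_right_cancel₀ (ne_of_gt hnpos) this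
    have hss : s * s = s := by linarith
    have hs01 : s = 0 ∨ s = 1 := by
      have : s * (s - 1) = 0 := by linarith
      rcases mul_eq_zero.mp this with h | h
      · exact Or.inl h
      · exact Or.inr (by linarith)
    rcases hs01 with h | h
    · rw [h] at ht
      exfalso; linarith
    · right
      rw [h] at ht
      have : k + 1 = n := by exact_mod_cast ht
      omega

section TwoTrans3

variable {G Ω : Type*} [Group G] [Fintype Ω] [MulAction G Ω]

theorem tt_orbit_card (h2 : MulAction.IsMultiplyPretransitive G Ω 2) (o : Ω) (α : MulAut G)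
    (hα : Odd (orderOf α)) (ω : Ω)
    (hk : (Nat.card (MulAction.orbit ((MulAction.stabilizer G o).map α.toMonoidHom) ω)).Coprime
      (Fintype.card Ω)) :
    Nat.card (MulAction.orbit ((MulAction.stabilizer G o).map α.toMonoidHom) ω) = 1 ∨
    Nat.card (MulAction.orbit ((MulAction.stabilizer G o).map α.toMonoidHom) ω)
      = Fintype.card Ω - 1 := by
  classical
  have := h2
  have : MulAction.IsPretransitive G Ω := MulAction.isPretransitive_of_is_two_pretransitive
  have hAJ := ttA_mul_J α o ω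
  have hJA := ttJ_mul_A α o ω
  have hrow := ttA_row α o ω
  generalize hkdef : Nat.card (MulAction.orbit ((MulAction.stabilizer G o).map α.toMonoidHom) ω)
    = k at hk hAJ hJA hrow ⊢
  have hk1 : 1 ≤ k := by
    rw [← hkdef]
    have : Nonempty (MulAction.orbit ((MulAction.stabilizer G o).map α.toMonoidHom) ω) :=
      ⟨⟨ω, MulAction.mem_orbit_self ω⟩⟩
    exact Nat.card_pos
  have hkle : k ≤ Fintype.card Ω := by
    rw [← hkdef, ← Nat.card_eq_fintype_card]
    exact Nat.card_le_card_of_injective Subtype.val Subtype.val_injective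
  by_cases hsub : ∃ x0 y0 : Ω, x0 ≠ y0
  · obtain ⟨x0, y0, hxy⟩ := hsub
    have hn : 2 ≤ Fintype.card Ω := Fintype.one_lt_card_iff.mpr ⟨x0, y0, hxy⟩
    generalize hA : ttA α o ω = A at hAJ hJA hrow
    have hAe : ttEqv α A := hA ▸ ttA_eqv α o ω
    have hidem : ∀ x y, A x y * A x y = A x y := hA ▸ ttA_idem α o ω
    have hnn : ∀ x y, 0 ≤ A x y := hA ▸ ttA_nonneg α o ω
    have hF1e : ttEqv (1 : MulAut G) (A * Aᵀ) := by
      have := ttEqv_mul hAe (ttEqv_transpose hAe)
      rwa [mul_inv_cancel] at this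
    have hF2e : ttEqv (1 : MulAut G) (A ^ orderOf α) := by
      have := ttEqv_pow hAe (orderOf α)
      rwa [pow_orderOf_eq_one] at this
    obtain ⟨c0, c1, hF1, h5, h4⟩ : ∃ c0 c1 : ℤ, A * Aᵀ = c0 • (1 : Matrix Ω Ω ℤ) + c1 • ttJ ∧
        c0 + c1 = k ∧ 0 ≤ c1 := by
      refine ⟨_, _, ttEqv_form h2 hF1e x0 y0 hxy, ?_, ?_⟩
      · rw [sub_add_cancel, Matrix.mul_apply]
        simp only [Matrix.transpose_apply, hidem]
        exact hrow x0
      · rw [Matrix.mul_apply]
        exact Finset.sum_nonneg fun z _ => mul_nonneg (hnn _ _) (hnn _ _)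
    obtain ⟨a, b, hF2⟩ : ∃ a b : ℤ, A ^ orderOf α = a • (1 : Matrix Ω Ω ℤ) + b • ttJ :=
      ⟨_, _, ttEqv_form h2 hF2e x0 y0 hxy⟩
    have hAtJ : Aᵀ * ttJ = (k:ℤ) • ttJ := by
      have := congrArg Matrix.transpose hJA
      rwa [Matrix.transpose_mul, ttJ_transpose, Matrix.transpose_smul, ttJ_transpose] at this
    have hJAt : ttJ * Aᵀ = (k:ℤ) • ttJ := by
      have := congrArg Matrix.transpose hAJ
      rwa [Matrix.transpose_mul, ttJ_transpose, Matrix.transpose_smul, ttJ_transpose] at this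
    have hJJ := ttJ_mul_self (Ω := Ω)
    have h1 : c0 + c1 * (Fintype.card Ω : ℤ) = k * k := by
      have e := congrArg (fun M : Matrix Ω Ω ℤ => (M * ttJ : Matrix Ω Ω ℤ) o o) hF1
      simp only [Matrix.mul_assoc, hAtJ, Matrix.mul_smul, hAJ, add_mul, Matrix.smul_mul,
        Matrix.one_mul, hJJ, Matrix.add_apply, Matrix.smul_apply, ttJ_apply, smul_eq_mul,
        mul_one] at e
      linarith
    have hpowJ : ∀ j : ℕ, A ^ j * ttJ = ((k:ℤ)^j) • ttJ := by
      intro j
      induction j with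
      | zero => simp
      | succ j ih =>
        rw [pow_succ, Matrix.mul_assoc, hAJ, Matrix.mul_smul, ih, smul_smul, pow_succ]
        congr 1; ring
    have h2' : a + b * (Fintype.card Ω : ℤ) = (k:ℤ)^(orderOf α) := by
      have e := congrArg (fun M : Matrix Ω Ω ℤ => (M * ttJ : Matrix Ω Ω ℤ) o o) hF2
      simp only [hpowJ, add_mul, Matrix.smul_mul, Matrix.one_mul, hJJ, Matrix.add_apply,
        Matrix.smul_apply, ttJ_apply, smul_eq_mul, mul_one] at e
      linarith
    have hpp : ∀ j : ℕ, ∃ e : ℤ, A ^ j * Aᵀ ^ j = (c0 ^ j) • (1 : Matrix Ω Ω ℤ) + e • ttJ := by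
      intro j
      induction j with
      | zero => exact ⟨0, by simp⟩
      | succ j ih =>
        obtain ⟨e, he⟩ := ih
        refine ⟨c0 ^ j * c1 + e * k * k, ?_⟩
        have : A ^ (j+1) * Aᵀ ^ (j+1) = A * (A ^ j * Aᵀ ^ j) * Aᵀ := by
          rw [pow_succ', pow_succ]; simp only [Matrix.mul_assoc]
        rw [this, he]
        simp only [mul_add, add_mul, Matrix.mul_smul, Matrix.smul_mul, Matrix.mul_one, hF1, hAJ,
          hJAt, smul_add, smul_smul]
        ext x y
        simp only [Matrix.add_apply, Matrix.smul_apply, smul_eq_mul]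
        ring
    have h3 : a * a = c0 ^ (orderOf α) := by
      obtain ⟨e, he⟩ := hpp (orderOf α)
      rw [← Matrix.transpose_pow, hF2] at he
      simp only [Matrix.transpose_add, Matrix.transpose_smul, Matrix.transpose_one,
        ttJ_transpose, mul_add, add_mul, Matrix.mul_smul, Matrix.smul_mul, Matrix.mul_one,
        Matrix.one_mul, hJJ, smul_smul] at he
      have e1 := congrFun (congrFun he x0) y0
      have e2 := congrFun (congrFun he x0) x0
      simp only [Matrix.add_apply, Matrix.smul_apply, smul_eq_mul, ttJ_apply,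
        Matrix.one_apply_ne hxy, Matrix.one_apply_eq, mul_one, mul_zero] at e1 e2
      linarith
    exact tt_arith (Fintype.card Ω) k (orderOf α) c0 c1 a b hkle hn hk1 hk hα h1 h2' h3 h4 h5
  · left
    push Not at hsub
    have : Fintype.card Ω ≤ 1 := Fintype.card_le_one_iff.mpr hsub
    omega

end TwoTrans3


section TwoTrans4

variable {G Ω : Type*} [Group G] [Fintype Ω] [MulAction G Ω]

theorem tt_stab [Finite G] (h2 : MulAction.IsMultiplyPretransitive G Ω 2) (o : Ω) (α : MulAut G)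
    (hα : Odd (orderOf α)) (ω : Ω)
    (hk : (Nat.card (MulAction.orbit ((MulAction.stabilizer G o).map α.toMonoidHom) ω)).Coprime
      (Fintype.card Ω)) :
    ∃ δ : Ω, (MulAction.stabilizer G o).map α.toMonoidHom = MulAction.stabilizer G δ := by
  classical
  have := h2
  have : MulAction.IsPretransitive G Ω := MulAction.isPretransitive_of_is_two_pretransitive
  have hcard := tt_orbit_card h2 o α hα ω hk
  have hKc : Nat.card ((MulAction.stabilizer G o).map α.toMonoidHom)
      = Nat.card (MulAction.stabilizer G o) :=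
    Subgroup.card_map_of_injective (f := α.toMonoidHom) α.injective
  generalize (MulAction.stabilizer G o).map α.toMonoidHom = K at hcard hKc ⊢
  have hfix : ∃ δ : Ω, ∀ κ ∈ K, κ • δ = δ := by
    rcases hcard with h | h
    · refine ⟨ω, fun κ hκ => ?_⟩
      have hsub : Subsingleton (MulAction.orbit K ω) := (Nat.card_eq_one_iff_unique.mp h).1
      have := @Subsingleton.elim _ hsub ⟨(⟨κ, hκ⟩ : K) • ω, MulAction.mem_orbit ω _⟩
        ⟨ω, MulAction.mem_orbit_self ω⟩
      exact congrArg Subtype.val this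
    · have hc : (MulAction.orbit K ω)ᶜ.ncard = 1 := by
        rw [Set.ncard_compl, Nat.card_eq_fintype_card, ← Nat.card_coe_set_eq, h]
        have : 2 ≤ Fintype.card Ω ∨ Fintype.card Ω ≤ 1 := by omega
        have hpos : 0 < Nat.card (MulAction.orbit K ω) := by
          have : Nonempty (MulAction.orbit K ω) := ⟨⟨ω, MulAction.mem_orbit_self ω⟩⟩
          exact Nat.card_pos
        omega
      obtain ⟨δ, hδ⟩ := Set.ncard_eq_one.mp hc
      refine ⟨δ, fun κ hκ => ?_⟩
      have hδ' : δ ∉ MulAction.orbit K ω := by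
        have : δ ∈ (MulAction.orbit K ω)ᶜ := by rw [hδ]; exact Set.mem_singleton δ
        exact this
      have hmem : κ • δ ∈ (MulAction.orbit K ω)ᶜ := by
        intro hmem
        apply hδ'
        obtain ⟨κ', hκ'⟩ := hmem
        refine ⟨(⟨κ, hκ⟩ : K)⁻¹ * κ', ?_⟩
        show ((⟨κ, hκ⟩ : K)⁻¹ * κ') • ω = δ
        rw [mul_smul]
        have hκ'' : κ' • ω = κ • δ := hκ'
        rw [hκ'']
        exact inv_smul_smul κ δ
      rw [hδ] at hmem
      exact hmem
  obtain ⟨δ, hδ⟩ := hfix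
  refine ⟨δ, ?_⟩
  have hle : K ≤ MulAction.stabilizer G δ := fun κ hκ => hδ κ hκ
  apply Subgroup.eq_of_le_of_card_ge hle
  have h1 : (MulAction.stabilizer G δ).index = (MulAction.stabilizer G o).index := by
    rw [MulAction.index_stabilizer_of_transitive, MulAction.index_stabilizer_of_transitive]
  have h3 := Subgroup.card_mul_index (MulAction.stabilizer G δ)
  have h4 := Subgroup.card_mul_index (MulAction.stabilizer G o)
  rw [h1] at h3
  have hpos : 0 < (MulAction.stabilizer G o).index :=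
    Nat.pos_of_ne_zero Subgroup.index_ne_zero_of_finite
  have := Nat.eq_of_mul_eq_mul_right hpos (h3.trans h4.symm)
  rw [hKc, this]

end TwoTrans4

section TwoTrans5

variable {Ω : Type*} [Fintype Ω]

theorem tt_perm (G : Subgroup (Equiv.Perm Ω)) (h2 : MulAction.IsMultiplyPretransitive G Ω 2)
    (o : Ω) (α : MulAut G) (δ : Ω)
    (hK : (MulAction.stabilizer G o).map α.toMonoidHom = MulAction.stabilizer G δ) :
    ∃ σ : Equiv.Perm Ω, σ ∈ Subgroup.normalizer (G : Set (Equiv.Perm Ω)) ∧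
      ∀ g : G, ((α g : G) : Equiv.Perm Ω) = σ * (g : Equiv.Perm Ω) * σ⁻¹ := by
  classical
  have := h2
  have : MulAction.IsPretransitive G Ω := MulAction.isPretransitive_of_is_two_pretransitive
  -- the map
  let f : Ω → Ω := fun x => α (Classical.choose (MulAction.exists_smul_eq G o x)) • δ
  have hf : ∀ g : G, f (g • o) = α g • δ := by
    intro g
    have hc := Classical.choose_spec (MulAction.exists_smul_eq G o (g • o))
    set g' := Classical.choose (MulAction.exists_smul_eq G o (g • o)) with hg'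
    have hmem : g⁻¹ * g' ∈ MulAction.stabilizer G o := by
      rw [MulAction.mem_stabilizer_iff, mul_smul, hc, inv_smul_smul]
    have hmem2 : α (g⁻¹ * g') ∈ MulAction.stabilizer G δ := by
      rw [← hK]; exact ⟨_, hmem, rfl⟩
    rw [MulAction.mem_stabilizer_iff, map_mul, map_inv, mul_smul, inv_smul_eq_iff] at hmem2
    exact hmem2
  have hf2 : ∀ (g : G) (x : Ω), f (g • x) = α g • f x := by
    intro g x
    obtain ⟨h, rfl⟩ := MulAction.exists_smul_eq G o x
    rw [← mul_smul, hf, hf, map_mul, mul_smul]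
  have hinj : Function.Injective f := by
    intro x x' hxx
    obtain ⟨h, rfl⟩ := MulAction.exists_smul_eq G o x
    obtain ⟨h', rfl⟩ := MulAction.exists_smul_eq G o x'
    rw [hf, hf] at hxx
    have hmem : α (h⁻¹ * h') ∈ MulAction.stabilizer G δ := by
      rw [MulAction.mem_stabilizer_iff, map_mul, map_inv, mul_smul, ← hxx, inv_smul_smul]
    rw [← hK] at hmem
    obtain ⟨u, hu, hu'⟩ := hmem
    have hu2 : u ∈ MulAction.stabilizer G o := hu
    have : u = h⁻¹ * h' := α.injective hu'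
    rw [this, MulAction.mem_stabilizer_iff, mul_smul, inv_smul_eq_iff] at hu2
    exact hu2.symm
  have hbij : Function.Bijective f := hinj.bijective_of_finite
  let σ : Equiv.Perm Ω := Equiv.ofBijective f hbij
  have hσ : ∀ g : G, ((α g : G) : Equiv.Perm Ω) = σ * (g : Equiv.Perm Ω) * σ⁻¹ := by
    intro g
    ext x
    have := hf2 g (σ⁻¹ x)
    simp only [Equiv.Perm.coe_mul, Function.comp_apply]
    have e1 : f (σ⁻¹ x) = x := by
      show σ (σ⁻¹ x) = x
      simp
    rw [e1] at this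
    exact this.symm
  refine ⟨σ, ?_, hσ⟩
  rw [Subgroup.mem_normalizer_iff]
  intro h
  constructor
  · intro hh
    have := hσ ⟨h, hh⟩
    simp only at this
    rw [← this]
    exact (α ⟨h, hh⟩).2
  · intro hh
    have e := hσ (α⁻¹ ⟨_, hh⟩)
    rw [MulAut.apply_inv_self] at e
    simp only at e
    have e2 : h = ((α⁻¹ ⟨_, hh⟩ : G) : Equiv.Perm Ω) := by
      have : σ * h * σ⁻¹ = σ * ((α⁻¹ ⟨_, hh⟩ : G) : Equiv.Perm Ω) * σ⁻¹ := e
      exact mul_left_cancel (mul_right_cancel this)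
    rw [e2]
    exact (α⁻¹ ⟨_, hh⟩ : G).2

end TwoTrans5


end Cfsg.Agent.Lib.helper5
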