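import Mathlib
import Cfsg.Prelude.Def_KGroupFacts
import Cfsg.Agent.Lib.helper5.TwoTransAut

set_option autoImplicit false

namespace Cfsg.Agent.Lib.helper5

section SchreierPrime

theorem sp_solvable_of_odd {B : Type*} [Group B] [Finite B] (R : Subgroup B)
    [Group.IsSolvable R] (h : ∀ b : B, Odd (orderOf b) → b ∈ R) : Group.IsSolvable B := by
  classical
  let O : Subgroup B := Subgroup.normalClosure {b | Odd (orderOf b)}
  have hO : O ≤ R := by
    show Subgroup.closure (Group.conjugatesOfSet _) ≤ R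
    rw [Subgroup.closure_le]
    intro x hx
    obtain ⟨a, ha, hax⟩ := Group.mem_conjugatesOfSet_iff.mp hx
    obtain ⟨c, hc⟩ := isConj_iff.mp hax
    apply h
    rw [← hc]
    have hord : orderOf (c * a * c⁻¹) = orderOf a := by
      have := MulEquiv.orderOf_eq (MulAut.conj c) a
      simpa [MulAut.conj_apply] using this
    rw [hord]; exact ha
  have : Group.IsSolvable O :=
    Group.isSolvable_of_isSolvable_injective (Subgroup.inclusion_injective hO)
  have h2 : IsPGroup 2 (B ⧸ O) := by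
    intro x
    obtain ⟨β, rfl⟩ := QuotientGroup.mk_surjective x
    obtain ⟨a, c, hc, hn⟩ := Nat.exists_eq_two_pow_mul_odd (orderOf_pos β).ne'
    refine ⟨a, ?_⟩
    rw [← QuotientGroup.mk_pow, QuotientGroup.eq_one_iff]
    apply Subgroup.subset_normalClosure
    show Odd (orderOf (β ^ 2 ^ a))
    have hd : orderOf (β ^ 2 ^ a) ∣ c := by
      apply orderOf_dvd_of_pow_eq_one
      rw [← pow_mul, ← hn, pow_orderOf_eq_one]
    exact Odd.of_dvd_nat hc hd
  have : Fact (Nat.Prime 2) := ⟨Nat.prime_two⟩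
  have : Group.IsNilpotent (B ⧸ O) := h2.isNilpotent
  exact Group.isSolvable_of_ker_le_range O.subtype (QuotientGroup.mk' O) (by simp)

theorem sp_odd_lift {A B : Type*} [Group A] [Finite A] [Group B] (π : A →* B) (β : A)
    (hb : Odd (orderOf (π β))) : ∃ α : A, Odd (orderOf α) ∧ π α = π β := by
  obtain ⟨a, c, hc, hn⟩ := Nat.exists_eq_two_pow_mul_odd (orderOf_pos β).ne'
  have hcop : Nat.Coprime (2 ^ a) (orderOf (π β)) :=
    Nat.Coprime.pow_left a (Nat.coprime_two_left.mpr hb)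
  obtain ⟨u, hu⟩ := exists_pow_eq_self_of_coprime hcop
  refine ⟨(β ^ 2 ^ a) ^ u, ?_, ?_⟩
  · have hd : orderOf ((β ^ 2 ^ a) ^ u) ∣ c := by
      apply orderOf_dvd_of_pow_eq_one
      rw [← pow_mul, ← pow_mul, show 2 ^ a * (u * c) = (2 ^ a * c) * u by ring, ← hn, pow_mul,
        pow_orderOf_eq_one, one_pow]
    exact Odd.of_dvd_nat hc hd
  · rw [map_pow, map_pow]; exact hu

theorem sp_cent_mem {Ω : Type*} (P : Subgroup (Equiv.Perm Ω)) (hP : MulAction.IsPretransitive P Ω)
    (hcomm : ∀ a ∈ P, ∀ b ∈ P, a * b = b * a) (σ : Equiv.Perm Ω)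
    (hσ : ∀ a ∈ P, σ * a = a * σ) (o : Ω) : σ ∈ P := by
  obtain ⟨x, hx⟩ := MulAction.exists_smul_eq P o (σ o)
  have hx' : (x : Equiv.Perm Ω) o = σ o := hx
  have : σ = (x : Equiv.Perm Ω) := by
    ext y
    obtain ⟨z, rfl⟩ := MulAction.exists_smul_eq P o y
    have h1 : σ ((z : Equiv.Perm Ω) o) = (z : Equiv.Perm Ω) (σ o) := by
      have := congrArg (fun τ : Equiv.Perm Ω => τ o) (hσ z z.2)
      simpa using this
    have h2 : (z : Equiv.Perm Ω) ((x : Equiv.Perm Ω) o)
        = (x : Equiv.Perm Ω) ((z : Equiv.Perm Ω) o) := by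
      have := congrArg (fun τ : Equiv.Perm Ω => τ o) (hcomm z z.2 x x.2)
      simpa using this
    show σ ((z : Equiv.Perm Ω) o) = (x : Equiv.Perm Ω) ((z : Equiv.Perm Ω) o)
    rw [h1, ← h2, hx']
  rw [this]; exact x.2

theorem sp_normalizer_solvable {Ω : Type*} (P : Subgroup (Equiv.Perm Ω)) [IsCyclic P]
    (hP : MulAction.IsPretransitive P Ω) (o : Ω) :
    Group.IsSolvable (Subgroup.normalizer (P : Set (Equiv.Perm Ω))) := by
  have : Group.IsSolvable (MulAut P) :=
    Group.isSolvable_of_isSolvable_injective (f := (IsCyclic.mulAutMulEquiv P).toMonoidHom)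
      (IsCyclic.mulAutMulEquiv P).injective
  have hcomm : ∀ a ∈ P, ∀ b ∈ P, a * b = b * a := by
    intro a ha b hb
    have := (IsCyclic.commGroup (α := P)).mul_comm ⟨a, ha⟩ ⟨b, hb⟩
    exact congrArg Subtype.val this
  have : Group.IsSolvable P := Group.isSolvable_of_comm (fun a b => by
    apply Subtype.ext
    exact hcomm a a.2 b b.2)
  have hle : P ≤ Subgroup.normalizer (P : Set (Equiv.Perm Ω)) := Subgroup.le_normalizer
  refine Group.isSolvable_of_ker_le_range (Subgroup.inclusion hle) P.normalizerMonoidHom ?_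
  rw [Subgroup.normalizerMonoidHom_ker]
  intro σ hσ
  rw [Subgroup.mem_subgroupOf, Subgroup.mem_centralizer_iff] at hσ
  have hmem : (σ : Equiv.Perm Ω) ∈ P :=
    sp_cent_mem P hP hcomm σ (fun a ha => (hσ a ha).symm) o
  exact ⟨⟨σ, hmem⟩, rfl⟩

theorem sp_out_transport {G G' : Type*} [Group G] [Group G'] (e : G ≃* G')
    (h : Group.IsSolvable (Cfsg.Out G')) : Group.IsSolvable (Cfsg.Out G) := by
  let φ : MulAut G' →* Cfsg.Out G :=
    (QuotientGroup.mk' (Cfsg.Inn G)).comp (MulAut.congr e.symm).toMonoidHom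
  have hφ : Cfsg.Inn G' ≤ φ.ker := by
    rintro _ ⟨g', rfl⟩
    rw [MonoidHom.mem_ker]
    show QuotientGroup.mk' (Cfsg.Inn G) (MulAut.congr e.symm (MulAut.conj g')) = 1
    rw [QuotientGroup.mk'_apply, QuotientGroup.eq_one_iff]
    refine ⟨e.symm g', ?_⟩
    ext x
    simp [MulAut.congr, MulAut.conj_apply]
  let ψ : Cfsg.Out G' →* Cfsg.Out G := QuotientGroup.lift (Cfsg.Inn G') φ hφ
  have hsurj : Function.Surjective ψ := by
    intro b
    obtain ⟨β, rfl⟩ := QuotientGroup.mk_surjective b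
    refine ⟨QuotientGroup.mk (MulAut.congr e β), ?_⟩
    show QuotientGroup.mk' (Cfsg.Inn G) (MulAut.congr e.symm (MulAut.congr e β)) = _
    have : MulAut.congr e.symm (MulAut.congr e β) = β := by
      ext x
      simp [MulAut.congr]
    rw [this]; rfl
  exact Group.isSolvable_of_surjective hsurj

end SchreierPrime

end Cfsg.Agent.Lib.helper5
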