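import Cfsg.Agent.Lib.helper5.SchreierPrime
import Cfsg.Agent.S0675
import Cfsg.Agent.S4290

set_option autoImplicit false

namespace Cfsg.Agent.Lib.helper5

section SchreierPrime2

theorem sp_out_solvable_perm {Ω : Type*} [Fintype Ω] (G : Subgroup (Equiv.Perm Ω))
    (hp : (Fintype.card Ω).Prime) [MulAction.IsPretransitive G Ω]
    (hns : ¬ Group.IsSolvable G) : Group.IsSolvable (Cfsg.Out G) := by
  classical
  have : Fact (Fintype.card Ω).Prime := ⟨hp⟩
  have h2 : MulAction.IsMultiplyPretransitive G Ω 2 :=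
    (Cfsg.Agent.S0675.result hp G).resolve_left hns
  obtain ⟨o⟩ : Nonempty Ω := Fintype.card_pos_iff.mp hp.pos
  have hidx : (MulAction.stabilizer G o).index = Fintype.card Ω := by
    rw [MulAction.index_stabilizer_of_transitive, Nat.card_eq_fintype_card]
  have hGp : Fintype.card Ω ∣ Nat.card G := hidx ▸ Subgroup.index_dvd_card _
  have hGp2 : ¬ (Fintype.card Ω) ^ 2 ∣ Nat.card G := by
    intro hdiv
    have h1 : Nat.card G ∣ Nat.card (Equiv.Perm Ω) := Subgroup.card_subgroup_dvd_card G
    rw [Nat.card_eq_fintype_card (α := Equiv.Perm Ω), Fintype.card_perm] at h1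
    have h3 : (Fintype.card Ω) ^ 2 ∣ (Fintype.card Ω).factorial := dvd_trans hdiv h1
    rw [← Nat.mul_factorial_pred hp.pos.ne', sq] at h3
    have h5 : Fintype.card Ω ∣ (Fintype.card Ω - 1).factorial :=
      Nat.dvd_of_mul_dvd_mul_left hp.pos h3
    have := (Nat.Prime.dvd_factorial hp).mp h5
    have := hp.pos
    omega
  have hHall : (Nat.card (MulAction.stabilizer G o)).Coprime
      (MulAction.stabilizer G o).index := by
    rw [hidx, Nat.coprime_comm, Nat.Prime.coprime_iff_not_dvd hp]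
    intro hd
    apply hGp2
    rw [← Subgroup.card_mul_index (MulAction.stabilizer G o), hidx, sq]
    exact Nat.mul_dvd_mul_right hd _
  obtain ⟨x, hx⟩ := exists_prime_orderOf_dvd_card' (Fintype.card Ω) hGp
  have hPcard : Nat.card (Subgroup.zpowers x) = Fintype.card Ω := by
    rw [Nat.card_zpowers, hx]
  have hfac : (Nat.card G).factorization (Fintype.card Ω) = 1 := by
    have hne : Nat.card G ≠ 0 := Nat.card_pos.ne'
    have h1 : 1 ≤ (Nat.card G).factorization (Fintype.card Ω) :=
      (hp.pow_dvd_iff_le_factorization hne).mp (by simpa using hGp)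
    have h2 : ¬ 2 ≤ (Nat.card G).factorization (Fintype.card Ω) :=
      fun h => hGp2 ((hp.pow_dvd_iff_le_factorization hne).mpr h)
    omega
  -- the image of ⟨x⟩ in the symmetric group
  have hP'card : Nat.card ((Subgroup.zpowers x).map G.subtype) = Fintype.card Ω := by
    rw [Subgroup.card_map_of_injective G.subtype_injective, hPcard]
  have : IsCyclic ((Subgroup.zpowers x).map G.subtype) := isCyclic_of_prime_card hP'card
  have hcyc : (x : Equiv.Perm Ω).IsCycle :=
    Equiv.Perm.isCycle_of_prime_order'' hp (by rw [Subgroup.orderOf_coe, hx])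
  have hsupp : ∀ a : Ω, (x : Equiv.Perm Ω) a ≠ a := by
    have hcard : (x : Equiv.Perm Ω).support.card = Fintype.card Ω := by
      rw [← hcyc.orderOf, Subgroup.orderOf_coe, hx]
    have : (x : Equiv.Perm Ω).support = Finset.univ := Finset.eq_univ_of_card _ hcard
    intro a
    rw [← Equiv.Perm.mem_support, this]; exact Finset.mem_univ a
  have hP'trans : MulAction.IsPretransitive ((Subgroup.zpowers x).map G.subtype) Ω := by
    constructor
    intro a b
    obtain ⟨i, hi⟩ := hcyc.exists_zpow_eq (hsupp a) (hsupp b)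
    exact ⟨⟨(x : Equiv.Perm Ω) ^ i, ⟨x ^ i, zpow_mem (Subgroup.mem_zpowers x) i, by simp⟩⟩, hi⟩
  have : Group.IsSolvable
      (Subgroup.normalizer (((Subgroup.zpowers x).map G.subtype : Subgroup (Equiv.Perm Ω)) :
        Set (Equiv.Perm Ω))) :=
    sp_normalizer_solvable _ hP'trans o
  -- the solvable group S
  let S : Subgroup (Equiv.Perm Ω) := Subgroup.normalizer (G : Set (Equiv.Perm Ω)) ⊓
    Subgroup.normalizer (((Subgroup.zpowers x).map G.subtype : Subgroup (Equiv.Perm Ω)) :
        Set (Equiv.Perm Ω))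
  have : Group.IsSolvable S :=
    Group.isSolvable_of_isSolvable_injective (Subgroup.inclusion_injective inf_le_right)
  let f : S →* Cfsg.Out G := (QuotientGroup.mk' (Cfsg.Inn G)).comp
    (G.normalizerMonoidHom.comp (Subgroup.inclusion inf_le_left))
  have : Group.IsSolvable f.range :=
    Group.isSolvable_of_surjective (f := f.rangeRestrict) f.rangeRestrict_surjective
  apply sp_solvable_of_odd f.range
  intro b hb
  obtain ⟨β, rfl⟩ := QuotientGroup.mk_surjective b
  obtain ⟨α, hα, hαβ⟩ := sp_odd_lift (QuotientGroup.mk' (Cfsg.Inn G)) β hb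
  obtain ⟨σ, hσN, hσ⟩ := Cfsg.Agent.S4290.result G h2 o hHall α hα
  -- Sylow conjugacy
  let S1 : Sylow (Fintype.card Ω) G := Sylow.ofCard (Subgroup.zpowers x)
    (by rw [hPcard, hfac, pow_one])
  let S2 : Sylow (Fintype.card Ω) G := Sylow.ofCard ((Subgroup.zpowers x).map α.toMonoidHom)
    (by rw [Subgroup.card_map_of_injective (f := α.toMonoidHom) α.injective, hPcard, hfac,
      pow_one])
  obtain ⟨g, hg⟩ := MulAction.exists_smul_eq G S2 S1
  have e : ((Subgroup.zpowers x).map α.toMonoidHom).map (MulAut.conj g).toMonoidHom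
      = Subgroup.zpowers x := by
    have := congrArg (fun T : Sylow (Fintype.card Ω) G => (T : Subgroup G)) hg
    exact this
  have hγ : ∀ y : G, (((MulAut.conj g * α) y : G) : Equiv.Perm Ω)
      = ((g : Equiv.Perm Ω) * σ) * (y : Equiv.Perm Ω) * ((g : Equiv.Perm Ω) * σ)⁻¹ := by
    intro y
    rw [MulAut.mul_apply, MulAut.conj_apply]
    simp only [Subgroup.coe_mul, Subgroup.coe_inv, hσ, mul_inv_rev, mul_assoc]
  have hγP : (Subgroup.zpowers x).map (MulAut.conj g * α).toMonoidHom = Subgroup.zpowers x := by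
    have h0 : (Subgroup.zpowers x).map (MulAut.conj g * α).toMonoidHom
        = ((Subgroup.zpowers x).map α.toMonoidHom).map (MulAut.conj g).toMonoidHom := by
      rw [Subgroup.map_map]; rfl
    rw [h0]; exact e
  have hσ'N : (g : Equiv.Perm Ω) * σ ∈ Subgroup.normalizer (G : Set (Equiv.Perm Ω)) :=
    mul_mem (Subgroup.le_normalizer g.2) hσN
  have hσ'P : (g : Equiv.Perm Ω) * σ ∈ Subgroup.normalizer
      (((Subgroup.zpowers x).map G.subtype : Subgroup (Equiv.Perm Ω)) :
        Set (Equiv.Perm Ω)) := by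
    rw [Subgroup.mem_normalizer_iff]
    intro h
    constructor
    · rintro ⟨y, hy, rfl⟩
      refine ⟨(MulAut.conj g * α) y, ?_, ?_⟩
      · rw [← hγP]; exact ⟨y, hy, rfl⟩
      · exact hγ y
    · rintro ⟨y, hy, hyh⟩
      rw [← hγP] at hy
      obtain ⟨y0, hy0, rfl⟩ := hy
      have hy0h : ((y0 : G) : Equiv.Perm Ω) = h := by
        have h1 := hγ y0
        have h2 : (((MulAut.conj g * α) y0 : G) : Equiv.Perm Ω)
            = ((g : Equiv.Perm Ω) * σ) * h * ((g : Equiv.Perm Ω) * σ)⁻¹ := hyh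
        rw [h1] at h2
        exact mul_left_cancel (mul_right_cancel h2)
      rw [← hy0h]
      exact ⟨y0, hy0, rfl⟩
  have hmem : (g : Equiv.Perm Ω) * σ ∈ S := ⟨hσ'N, hσ'P⟩
  refine ⟨⟨(g : Equiv.Perm Ω) * σ, hmem⟩, ?_⟩
  have hf : G.normalizerMonoidHom
      (Subgroup.inclusion inf_le_left ⟨(g : Equiv.Perm Ω) * σ, hmem⟩) = MulAut.conj g * α := by
    refine MulEquiv.ext fun y => Subtype.ext ?_
    rw [hγ y]
    rfl
  show QuotientGroup.mk' (Cfsg.Inn G) (G.normalizerMonoidHom
      (Subgroup.inclusion inf_le_left ⟨_, hmem⟩)) = QuotientGroup.mk β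
  rw [hf, map_mul]
  have h1 : QuotientGroup.mk' (Cfsg.Inn G) (MulAut.conj g) = 1 := by
    rw [QuotientGroup.mk'_apply, QuotientGroup.eq_one_iff]; exact ⟨g, rfl⟩
  rw [h1, one_mul]; exact hαβ

end SchreierPrime2

end Cfsg.Agent.Lib.helper5
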