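import Mathlib

set_option autoImplicit false

/-!
# Elements of prime order with `C_G(x) = ⟨x⟩`: group theory

`scpPw p x a = x ^ a.val`, the subgroup `scpK p x` of `(ZMod p)ˣ` induced by `N_G(⟨x⟩)`,
the number of classes of elements of order `p` (`scp_card_classes`), and the case `p = 2`.
-/

namespace Cfsg.Agent.Lib.helper5

universe u

section sca

variable {G : Type u} [Group G]

/-- `scpPw p x a = x ^ a.val`. -/
def scpPw (p : ℕ) (x : G) (a : ZMod p) : G := x ^ a.val

theorem scpPw_add (p : ℕ) [NeZero p] (x : G) (hx : orderOf x = p) (a b : ZMod p) :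
    scpPw p x (a + b) = scpPw p x a * scpPw p x b := by
  unfold scpPw
  rw [← pow_add, pow_eq_pow_iff_modEq, hx, ZMod.val_add]
  exact Nat.mod_modEq _ _

theorem scpPw_mul (p : ℕ) [NeZero p] (x : G) (hx : orderOf x = p) (a b : ZMod p) :
    scpPw p x (a * b) = scpPw p x a ^ b.val := by
  unfold scpPw
  rw [← pow_mul, pow_eq_pow_iff_modEq, hx, ZMod.val_mul]
  exact Nat.mod_modEq _ _

theorem scpPw_zero (p : ℕ) (x : G) : scpPw p x 0 = 1 := by
  unfold scpPw
  rw [ZMod.val_zero, pow_zero]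

theorem scpPw_one (p : ℕ) [Fact (1 < p)] (x : G) : scpPw p x 1 = x := by
  unfold scpPw
  rw [ZMod.val_one, pow_one]

theorem scpPw_inj (p : ℕ) [NeZero p] (x : G) (hx : orderOf x = p) (a b : ZMod p) :
    scpPw p x a = scpPw p x b ↔ a = b := by
  unfold scpPw
  rw [pow_eq_pow_iff_modEq, hx]
  constructor
  · intro h
    exact ZMod.val_injective p (Nat.ModEq.eq_of_lt_of_lt h (ZMod.val_lt a) (ZMod.val_lt b))
  · rintro rfl
    rfl

theorem scpPw_eq_one (p : ℕ) [NeZero p] (x : G) (hx : orderOf x = p) (a : ZMod p) :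
    scpPw p x a = 1 ↔ a = 0 := by
  rw [← scpPw_zero p x, scpPw_inj p x hx]

theorem scpPw_natCast (p : ℕ) [NeZero p] (x : G) (hx : orderOf x = p) (n : ℕ) :
    scpPw p x (n : ZMod p) = x ^ n := by
  unfold scpPw
  rw [ZMod.val_natCast, ← hx, pow_mod_orderOf]

theorem scpPw_neg (p : ℕ) [NeZero p] (x : G) (hx : orderOf x = p) (a : ZMod p) :
    scpPw p x (-a) = (scpPw p x a)⁻¹ := by
  apply eq_inv_of_mul_eq_one_left
  rw [← scpPw_add p x hx, neg_add_cancel, scpPw_zero]

theorem scpPw_mem (p : ℕ) (x : G) (a : ZMod p) : scpPw p x a ∈ Subgroup.zpowers x :=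
  Subgroup.pow_mem _ (Subgroup.mem_zpowers x) _

theorem scp_mem_zpowers (p : ℕ) [NeZero p] (x : G) (hx : orderOf x = p) {g : G}
    (hg : g ∈ Subgroup.zpowers x) : ∃ a : ZMod p, scpPw p x a = g := by
  have hfin : IsOfFinOrder x := by
    rw [← orderOf_pos_iff, hx]
    exact Nat.pos_of_ne_zero (NeZero.ne p)
  rw [← hfin.mem_powers_iff_mem_zpowers] at hg
  obtain ⟨n, rfl⟩ := hg
  exact ⟨(n : ZMod p), scpPw_natCast p x hx n⟩

theorem scp_conj_pw (p : ℕ) [NeZero p] (x : G) (hx : orderOf x = p) (g : G) (l a : ZMod p)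
    (h : g * x * g⁻¹ = scpPw p x l) : g * scpPw p x a * g⁻¹ = scpPw p x (l * a) := by
  rw [scpPw_mul p x hx, ← h, conj_pow]
  rfl

theorem scp_sylow [Finite G] (p : ℕ) [Fact p.Prime] (x : G) (hx : orderOf x = p)
    (hC : Subgroup.centralizer ({x} : Set G) = Subgroup.zpowers x) :
    ∃ S : Sylow p G, (S : Subgroup G) = Subgroup.zpowers x := by
  have hp := Fact.out (p := p.Prime)
  haveI : NeZero p := ⟨hp.ne_zero⟩
  have hzp : IsPGroup p (Subgroup.zpowers x) := by
    apply IsPGroup.of_card (n := 1)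
    rw [Nat.card_zpowers, hx, pow_one]
  obtain ⟨S, hS⟩ := hzp.exists_le_sylow
  refine ⟨S, le_antisymm ?_ hS⟩
  have hxS : x ∈ (S : Subgroup G) := hS (Subgroup.mem_zpowers x)
  have hx1 : x ≠ 1 := by
    intro h
    rw [h, orderOf_one] at hx
    exact hp.one_lt.ne hx
  haveI : Nontrivial (S : Subgroup G) :=
    ⟨⟨⟨x, hxS⟩, 1, fun h => hx1 (congrArg Subtype.val h)⟩⟩
  haveI := IsPGroup.center_nontrivial S.isPGroup'
  obtain ⟨z, hz⟩ := exists_ne (1 : Subgroup.center (S : Subgroup G))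
  have hzc : ((z : (S : Subgroup G)) : G) ∈ Subgroup.centralizer ({x} : Set G) := by
    rw [Subgroup.mem_centralizer_iff]
    intro y hy
    rw [Set.mem_singleton_iff] at hy
    rw [hy]
    have h1 := Subgroup.mem_center_iff.mp z.2 ⟨x, hxS⟩
    exact congrArg Subtype.val h1
  rw [hC] at hzc
  obtain ⟨a, ha⟩ := scp_mem_zpowers p x hx hzc
  have ha0 : a ≠ 0 := by
    rintro rfl
    rw [scpPw_zero] at ha
    apply hz
    apply Subtype.ext
    apply Subtype.ext
    exact ha.symm
  have hxz : x = ((z : (S : Subgroup G)) : G) ^ (a⁻¹).val := by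
    rw [← ha, ← scpPw_mul p x hx, mul_inv_cancel₀ ha0, scpPw_one]
  rw [← hC]
  intro s hs
  rw [Subgroup.mem_centralizer_iff]
  intro y hy
  rw [Set.mem_singleton_iff] at hy
  have h1 := Subgroup.mem_center_iff.mp z.2 ⟨s, hs⟩
  have h2 : s * ((z : (S : Subgroup G)) : G) = ((z : (S : Subgroup G)) : G) * s :=
    congrArg Subtype.val h1
  have h3 : Commute s (((z : (S : Subgroup G)) : G) ^ (a⁻¹).val) :=
    Commute.pow_right (show Commute s _ from h2) _
  rw [hy]
  rw [← hxz] at h3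
  exact h3.eq.symm

theorem scp_conj_mem [Finite G] (p : ℕ) [Fact p.Prime] (x : G) (hx : orderOf x = p)
    (hC : Subgroup.centralizer ({x} : Set G) = Subgroup.zpowers x) (g : G)
    (hg : orderOf g = p) : ∃ h : G, h * g * h⁻¹ ∈ Subgroup.zpowers x := by
  obtain ⟨S, hS⟩ := scp_sylow p x hx hC
  have hzp : IsPGroup p (Subgroup.zpowers g) := by
    apply IsPGroup.of_card (n := 1)
    rw [Nat.card_zpowers, hg, pow_one]
  obtain ⟨S', hS'⟩ := hzp.exists_le_sylow
  obtain ⟨h, hh⟩ := MulAction.exists_smul_eq G S' S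
  refine ⟨h, ?_⟩
  have hgS : g ∈ (S' : Subgroup G) := hS' (Subgroup.mem_zpowers g)
  have h2 : h * g * h⁻¹ ∈ ((h • S' : Sylow p G) : Subgroup G) := by
    rw [Sylow.coe_subgroup_smul]
    have := Subgroup.smul_mem_pointwise_smul g (MulAut.conj h) (S' : Subgroup G) hgS
    simpa [MulAut.smul_def] using this
  rw [hh, hS] at h2
  exact h2

/-- The subgroup of `(ZMod p)ˣ` of exponents `k` such that `x ↦ x ^ k` is induced by conjugation. -/
def scpK (p : ℕ) (x : G) : Subgroup (ZMod p)ˣ where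
  carrier := {k | ∃ n : G, ∀ a : ZMod p, n * scpPw p x a * n⁻¹ = scpPw p x ((k : ZMod p) * a)}
  mul_mem' := by
    rintro k₁ k₂ ⟨n₁, h₁⟩ ⟨n₂, h₂⟩
    refine ⟨n₁ * n₂, fun a => ?_⟩
    rw [Units.val_mul, mul_assoc (k₁ : ZMod p), ← h₁, ← h₂]
    group
  one_mem' := ⟨1, fun a => by simp⟩
  inv_mem' := by
    rintro k ⟨n, h⟩
    refine ⟨n⁻¹, fun a => ?_⟩
    have h1 := h (((k⁻¹ : (ZMod p)ˣ) : ZMod p) * a)
    rw [← mul_assoc, ← Units.val_mul, mul_inv_cancel, Units.val_one, one_mul] at h1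
    rw [← h1]
    group

theorem scp_mem_K (p : ℕ) [Fact p.Prime] (x : G) (hx : orderOf x = p) (k : (ZMod p)ˣ) :
    k ∈ scpK p x ↔ ∃ n : G, n * x * n⁻¹ = scpPw p x (k : ZMod p) := by
  haveI : NeZero p := ⟨(Fact.out : p.Prime).ne_zero⟩
  constructor
  · rintro ⟨n, h⟩
    refine ⟨n, ?_⟩
    have := h 1
    rwa [scpPw_one, mul_one] at this
  · rintro ⟨n, h⟩
    exact ⟨n, fun a => scp_conj_pw p x hx n _ a h⟩

theorem scp_isConj_pw (p : ℕ) [Fact p.Prime] (x : G) (hx : orderOf x = p) (a b : (ZMod p)ˣ) :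
    IsConj (scpPw p x (a : ZMod p)) (scpPw p x (b : ZMod p)) ↔ a⁻¹ * b ∈ scpK p x := by
  haveI : NeZero p := ⟨(Fact.out : p.Prime).ne_zero⟩
  constructor
  · intro h
    obtain ⟨n, hn⟩ := isConj_iff.mp h
    refine ⟨n, fun c => ?_⟩
    have h1 : scpPw p x c
        = scpPw p x (a : ZMod p) ^ (((a⁻¹ : (ZMod p)ˣ) : ZMod p) * c).val := by
      rw [← scpPw_mul p x hx, ← mul_assoc, ← Units.val_mul, mul_inv_cancel, Units.val_one,
        one_mul]
    rw [h1, ← conj_pow, hn, ← scpPw_mul p x hx]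
    congr 1
    rw [Units.val_mul]
    ring
  · rintro ⟨n, hn⟩
    rw [isConj_iff]
    refine ⟨n, ?_⟩
    rw [hn (a : ZMod p), ← Units.val_mul]
    congr 2
    rw [mul_comm a⁻¹ b, inv_mul_cancel_right]

theorem scp_card_classes [Finite G] (p : ℕ) [Fact p.Prime] (x : G) (hx : orderOf x = p)
    (hC : Subgroup.centralizer ({x} : Set G) = Subgroup.zpowers x) :
    Nat.card {C : ConjClasses G // ∃ g ∈ C.carrier, orderOf g = p} = (scpK p x).index := by
  have hp := Fact.out (p := p.Prime)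
  haveI : NeZero p := ⟨hp.ne_zero⟩
  have hord : ∀ a : (ZMod p)ˣ, orderOf (scpPw p x (a : ZMod p)) = p := by
    intro a
    apply orderOf_eq_prime
    · unfold scpPw
      have h0 := pow_orderOf_eq_one x
      rw [hx] at h0
      rw [← pow_mul, mul_comm, pow_mul, h0, one_pow]
    · rw [Ne, scpPw_eq_one p x hx]
      exact a.ne_zero
  let f : (ZMod p)ˣ → {C : ConjClasses G // ∃ g ∈ C.carrier, orderOf g = p} :=
    fun a => ⟨ConjClasses.mk (scpPw p x (a : ZMod p)), scpPw p x (a : ZMod p),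
      ConjClasses.mem_carrier_mk, hord a⟩
  have hf : ∀ a b : (ZMod p)ˣ, f a = f b ↔ a⁻¹ * b ∈ scpK p x := by
    intro a b
    rw [← scp_isConj_pw p x hx, ← ConjClasses.mk_eq_mk_iff_isConj]
    exact Subtype.ext_iff
  unfold Subgroup.index
  symm
  apply Nat.card_congr
  refine Equiv.ofBijective (fun q => Quotient.liftOn' q f
    (fun a b hab => (hf a b).mpr (QuotientGroup.leftRel_apply.mp hab))) ⟨?_, ?_⟩
  · intro q₁ q₂
    induction q₁ using Quotient.inductionOn' with
    | _ a =>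
      induction q₂ using Quotient.inductionOn' with
      | _ b =>
        intro h
        have h' : f a = f b := h
        exact Quotient.sound' (QuotientGroup.leftRel_apply.mpr ((hf a b).mp h'))
  · rintro ⟨C, g, hgC, hg⟩
    obtain ⟨h, hh⟩ := scp_conj_mem p x hx hC g hg
    obtain ⟨a, ha⟩ := scp_mem_zpowers p x hx hh
    have hg1 : g ≠ 1 := by
      intro h1
      rw [h1, orderOf_one] at hg
      exact hp.one_lt.ne hg
    have ha0 : a ≠ 0 := by
      rintro rfl
      rw [scpPw_zero] at ha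
      apply hg1
      have : h * g * h⁻¹ = 1 := ha.symm
      have h3 : g = h⁻¹ * (h * g * h⁻¹) * h := by group
      rw [h3, this]
      group
    refine ⟨Quotient.mk'' (Units.mk0 a ha0), ?_⟩
    apply Subtype.ext
    show ConjClasses.mk (scpPw p x ((Units.mk0 a ha0 : (ZMod p)ˣ) : ZMod p)) = C
    rw [Units.val_mk0, ha, ← ConjClasses.mem_carrier_iff_mk_eq.mp hgC]
    exact (ConjClasses.mk_eq_mk_iff_isConj.mpr (isConj_iff.mpr ⟨h, rfl⟩)).symm

theorem scp_card_K_mul [Finite G] (p : ℕ) [Fact p.Prime] (x : G) :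
    Nat.card (scpK p x) * (scpK p x).index = p - 1 := by
  rw [Subgroup.card_mul_index, Nat.card_eq_fintype_card, ZMod.card_units]

theorem scp_zmod_two (b : ZMod 2) : b = 0 ∨ b = 1 := by
  revert b
  decide

theorem scp_two_even [Finite G] (x : G) (hx : orderOf x = 2)
    (hC : Subgroup.centralizer ({x} : Set G) = Subgroup.zpowers x) :
    Even (commutator G).index := by
  haveI : Fact (Nat.Prime 2) := ⟨Nat.prime_two⟩
  obtain ⟨S, hS⟩ := scp_sylow 2 x hx hC
  have hx1 : x ≠ 1 := by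
    intro h
    rw [h, orderOf_one] at hx
    omega
  have hN : Subgroup.normalizer ((S : Subgroup G) : Set G) ≤ Subgroup.centralizer (S : Set G) := by
    intro g hg
    have h1 : g * x * g⁻¹ ∈ (S : Subgroup G) :=
      (Subgroup.mem_normalizer_iff.mp hg x).mp (hS ▸ Subgroup.mem_zpowers x)
    rw [hS] at h1
    obtain ⟨a, ha⟩ := scp_mem_zpowers 2 x hx h1
    have ha01 := scp_zmod_two a
    have hgx : g * x * g⁻¹ = x := by
      rcases ha01 with h0 | h0
      · exfalso
        rw [h0, scpPw_zero] at ha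
        apply hx1
        have h3 : x = g⁻¹ * (g * x * g⁻¹) * g := by group
        rw [h3, ← ha]
        group
      · rw [h0, scpPw_one] at ha
        exact ha.symm
    have hgc : g ∈ Subgroup.centralizer ({x} : Set G) := by
      rw [Subgroup.mem_centralizer_iff]
      intro y hy
      rw [Set.mem_singleton_iff] at hy
      rw [hy]
      calc x * g = g * x * g⁻¹ * g := by rw [hgx]
        _ = g * x := by group
    rw [hC] at hgc
    rw [Subgroup.mem_centralizer_iff]
    intro s hs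
    have hs' : s ∈ Subgroup.zpowers x := hS ▸ hs
    obtain ⟨i, rfl⟩ := Subgroup.mem_zpowers_iff.mp hs'
    obtain ⟨j, rfl⟩ := Subgroup.mem_zpowers_iff.mp hgc
    rw [← zpow_add, ← zpow_add, add_comm]
  have hcomp := MonoidHom.ker_transferSylow_isComplement' S hN
  have hidx : (MonoidHom.transferSylow S hN).ker.index = 2 := by
    rw [hcomp.symm.index_eq_card, hS, Nat.card_zpowers, hx]
  have hle : commutator G ≤ (MonoidHom.transferSylow S hN).ker := by
    rw [commutator_def, Subgroup.commutator_le]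
    intro g₁ _ g₂ _
    rw [MonoidHom.mem_ker, map_commutatorElement, commutatorElement_eq_one_iff_commute]
    exact Subtype.ext (hN (Subgroup.le_normalizer ((MonoidHom.transferSylow S hN) g₂).2)
      ((MonoidHom.transferSylow S hN) g₁) ((MonoidHom.transferSylow S hN) g₁).2)
  have := Subgroup.index_dvd_of_le hle
  rw [hidx] at this
  exact even_iff_two_dvd.mpr this

end sca

end Cfsg.Agent.Lib.helper5
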